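import Cfsg.Agent.H25.CNSolv

/-!
Nilpotent Frobenius complements: cyclic, or cyclic of odd order times generalized quaternion.
-/

set_option autoImplicit false
set_option linter.style.haveILetI false
set_option linter.unusedSimpArgs false
set_option linter.unusedVariables false
set_option linter.unusedSectionVars false

open Cfsg Subgroup

namespace Cfsg.Agent.H25.CN

universe u

theorem complement_structure {G : Type u} [Group G] [Finite G] {E : Subgroup G}
    (hE : Group.IsNilpotent E) (hmod : Frob.HasFPFModule E) :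
    IsCyclic E ∨ ∃ C Q : Subgroup G, C ⊔ Q = E ∧ (∀ a ∈ C, ∀ b ∈ Q, a * b = b * a) ∧ IsCyclic C ∧
      Odd (Nat.card C) ∧ ∃ n : ℕ, Nonempty (↥Q ≃* QuaternionGroup (2 ^ n)) := by
  haveI : Fact (Nat.Prime 2) := ⟨Nat.prime_two⟩
  obtain ⟨N, hNn, hNc, k, hNi⟩ := Transfer.hasNPC_iff_exists.mp (Transfer.hasNPC_of_isNilpotent (p := 2) hE)
  haveI := hNn
  set C := N.map E.subtype with hC
  have hCE : C ≤ E := Subgroup.map_subtype_le _
  have eC : N ≃* C := N.equivMapOfInjective E.subtype E.subtype_injective
  have hCcard : Nat.card C = Nat.card N := (Nat.card_congr eC.toEquiv).symm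
  have hCodd : Odd (Nat.card C) := by
    rw [hCcard, ← Nat.not_even_iff_odd, even_iff_two_dvd]
    exact (Nat.Prime.coprime_iff_not_dvd Nat.prime_two).mp hNc.symm
  have hCcomm : C ≤ centralizer (C : Set G) := by
    apply commute_of_forall_pel
    intro r hr s hs x hx y hy hxr hys
    haveI : Fact r.Prime := ⟨hr⟩
    haveI : Fact s.Prime := ⟨hs⟩
    by_cases hrs : r = s
    · subst hrs
      by_cases hy1 : y = 1
      · rw [hy1]; simp
      have hr2 : r ≠ 2 := by
        rintro rfl
        obtain ⟨k, hk⟩ := hys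
        obtain ⟨j, _, hj⟩ := (Nat.dvd_prime_pow hr).mp (orderOf_dvd_of_pow_eq_one hk)
        have h1 : orderOf y ∣ Nat.card C := Subgroup.orderOf_dvd_natCard _ hy
        have h2 : 2 ∣ orderOf y := by
          rw [hj]
          refine dvd_pow_self 2 ?_
          rintro rfl
          rw [pow_zero, orderOf_eq_one_iff] at hj
          exact hy1 hj
        have h3 := h2.trans h1
        rw [← even_iff_two_dvd] at h3
        exact (Nat.not_even_iff_odd.mpr hCodd) h3
      exact comm_of_pel_odd hE hmod hr2 (hCE hx) (hCE hy) hxr hys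
    · exact nil_comm (p := r) hE (hCE hx) (hCE hy) hxr (orderOf_coprime_of_pel hs hr (Ne.symm hrs) hys)
  have hCcyc : IsCyclic C := by
    have h1 : Frob.HasFPFModule C := (hmod.subgroup N).of_injective eC.symm.toMonoidHom eC.symm.injective
    haveI : IsMulCommutative C := by
      refine ⟨⟨?_⟩⟩
      rintro ⟨a, ha⟩ ⟨b, hb⟩
      apply Subtype.ext
      exact (mem_centralizer_iff.mp (hCcomm ha) b hb).symm
    exact h1.isCyclic_of_isMulCommutative
  obtain ⟨T⟩ : Nonempty (Sylow 2 E) := inferInstance
  have h3 := (hmod.subgroup (T : Subgroup E)).unique_subgroup_of_isPGroup T.isPGroup'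
  rcases S0016.result 2 T.isPGroup' h3 with h4 | ⟨_, n, ⟨e⟩⟩
  · left
    have hEcomm : E ≤ centralizer (E : Set G) := by
      apply commute_of_forall_pel
      intro r hr s hs x hx y hy hxr hys
      haveI : Fact r.Prime := ⟨hr⟩
      haveI : Fact s.Prime := ⟨hs⟩
      by_cases hrs : r = s
      · subst hrs
        by_cases hr2 : r = 2
        · subst hr2
          haveI := h4
          have h5 := mem_sylow_of_nil hE T hx hxr
          have h6 := mem_sylow_of_nil hE T hy hys
          have h7 : (⟨⟨x, hx⟩, h5⟩ : (T : Subgroup E)) * ⟨⟨y, hy⟩, h6⟩ = ⟨⟨y, hy⟩, h6⟩ * ⟨⟨x, hx⟩, h5⟩ :=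
            (inferInstance : IsMulCommutative (T : Subgroup E)).is_comm.comm _ _
          exact congrArg (fun t : (T : Subgroup E) => ((t : E) : G)) h7
        · exact comm_of_pel_odd hE hmod hr2 hx hy hxr hys
      · exact nil_comm (p := r) hE hx hy hxr (orderOf_coprime_of_pel hs hr (Ne.symm hrs) hys)
    haveI : IsMulCommutative E := by
      refine ⟨⟨?_⟩⟩
      rintro ⟨a, ha⟩ ⟨b, hb⟩
      apply Subtype.ext
      exact (mem_centralizer_iff.mp (hEcomm ha) b hb).symm
    exact hmod.isCyclic_of_isMulCommutative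
  · right
    refine ⟨C, (T : Subgroup E).map E.subtype, ?_, ?_, hCcyc, hCodd, n,
      ⟨((T : Subgroup E).equivMapOfInjective E.subtype E.subtype_injective).symm.trans e⟩⟩
    · apply le_antisymm
      · exact sup_le hCE (Subgroup.map_subtype_le _)
      · apply le_of_forall_pel
        intro r hr x hx hxr
        haveI : Fact r.Prime := ⟨hr⟩
        by_cases hr2 : r = 2
        · subst hr2
          exact mem_sup_right ⟨⟨x, hx⟩, mem_sylow_of_nil hE T hx hxr, rfl⟩
        · apply mem_sup_left
          refine ⟨⟨x, hx⟩, ?_, rfl⟩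
          change (⟨x, hx⟩ : E) ∈ N
          rw [Transfer.mem_iff_coprime_of_card_of_index hNc hNi, Subgroup.orderOf_mk]
          exact orderOf_coprime_of_pel hr Nat.prime_two hr2 hxr
    · intro a ha b hb
      have hbE : b ∈ E := (Subgroup.map_subtype_le _) hb
      refine (nil_comm (p := 2) hE hbE (hCE ha) ?_ ?_).symm
      · exact pel_of_mem (T.isPGroup'.map E.subtype) hb
      · refine Nat.Coprime.coprime_dvd_left (Subgroup.orderOf_dvd_natCard _ ha) ?_
        rw [hCcard]; exact hNc

end Cfsg.Agent.H25.CN
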