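import Cfsg.Agent.H25.CNCompl
import Cfsg.Agent.H25.ZJMain
import Cfsg.Agent.Transfer.Fusion
import Cfsg.Agent.Transfer.Frobenius

/-!
When all centralizers of nonidentity `p`-elements of a minimal simple group of odd order are
`p`-groups, `N_G(Z(J(P)))` contains all `p`-local subgroups meeting it.
-/

set_option autoImplicit false
set_option linter.style.haveILetI false
set_option linter.unusedSimpArgs false
set_option linter.unusedVariables false
set_option linter.unusedSectionVars false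

open Cfsg Subgroup
open scoped Pointwise

namespace Cfsg.Agent.H25.CN

section

variable {G : Type*} [Group G] [Finite G] {p : ℕ} [hpf : Fact p.Prime]

/-- `W(S) = Z(J_e(S))`. -/
def WZ (p : ℕ) {G : Type*} [Group G] (S : Subgroup G) : Subgroup G := cZ (Je p S)

theorem WZ_le (S : Subgroup G) : WZ p S ≤ S := by
  intro x hx
  exact Je_le S hx.1

theorem exists_center_order_p {S : Subgroup G} (hS : IsPGroup p S) (hne : S ≠ ⊥) :
    ∃ z ∈ S, orderOf z = p ∧ ∀ s ∈ S, z * s = s * z := by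
  haveI : Nontrivial S := (Subgroup.nontrivial_iff_ne_bot S).mpr hne
  haveI := hS.center_nontrivial
  have h1 : p ∣ Nat.card (center S) := by
    have h2 := (hS.to_subgroup (center S)).card_eq_or_dvd
    rcases h2 with h2 | h2
    · exfalso
      have := Finite.one_lt_card (α := center S)
      omega
    · exact h2
  obtain ⟨z, hz⟩ := exists_prime_orderOf_dvd_card' p h1
  refine ⟨((z : S) : G), (z : S).2, ?_, ?_⟩
  · rw [Subgroup.orderOf_coe, Subgroup.orderOf_coe]; exact hz
  · intro s hs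
    exact (congrArg Subtype.val (mem_center_iff.mp z.2 ⟨s, hs⟩)).symm

theorem mem_WZ {S : Subgroup G} {z : G} (hz : z ∈ S) (hzp : orderOf z = p)
    (hzc : ∀ s ∈ S, z * s = s * z) : z ∈ WZ p S := by
  have hp := hpf.out
  have hz1 : z ^ p = 1 := by rw [← hzp]; exact pow_orderOf_eq_one z
  obtain ⟨A, hA⟩ := ZJ.maxIn_nonempty (fun A : Subgroup G => IsElementaryAbelian p A)
    (H11.elem_bot p) S
  have hzA : z ∈ A := by
    refine ZJ.mem_of_maxIn_elem hA hz hz1 ?_
    rw [mem_centralizer_iff]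
    intro a ha
    exact (hzc a (hA.1 ha)).symm
  refine ⟨le_Je hA hzA, ?_⟩
  change z ∈ centralizer _
  rw [mem_centralizer_iff]
  intro a ha
  exact (hzc a (Je_le S ha)).symm

theorem WZ_ne_bot {S : Subgroup G} (hS : IsPGroup p S) (hne : S ≠ ⊥) : WZ p S ≠ ⊥ := by
  obtain ⟨z, hz, hzp, hzc⟩ := exists_center_order_p hS hne
  intro h
  have h1 := mem_WZ hz hzp hzc
  rw [h, mem_bot] at h1
  rw [h1, orderOf_one] at hzp
  exact hpf.out.one_lt.ne hzp

theorem normalizer_le_normalizer_WZ (S : Subgroup G) :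
    normalizer (S : Set G) ≤ normalizer (WZ p S : Set G) :=
  (normalizer_le_normalizer_Je S).trans (normalizer_le_normalizer_cZ _)

theorem WZ_map {G' : Type*} [Group G'] (f : G →* G') (hf : Function.Injective f) (S : Subgroup G) :
    (WZ p S).map f = WZ p (S.map f) := by
  unfold WZ
  rw [map_cZ _ _ (hf.comp (Subgroup.subtype_injective _)), map_Je f hf.injOn]

theorem WZ_conj (g : G) (S : Subgroup G) :
    (WZ p S).map (MulAut.conj g).toMonoidHom = WZ p (S.map (MulAut.conj g).toMonoidHom) :=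
  WZ_map _ (MulAut.conj g).injective S

/-- `p`-local subgroups normalize `W` of their Sylow subgroups. -/
theorem normalizer_le_of_sylow (hp2 : p ≠ 2) (hodd : Odd (Nat.card G)) {N : Subgroup G}
    [Group.IsSolvable N] (hO : pPrimeCore p N = ⊥) (S : Sylow p N) :
    N ≤ normalizer (WZ p ((S : Subgroup N).map N.subtype) : Set G) := by
  have hoddN : Odd (Nat.card N) := hodd.of_dvd_nat (card_subgroup_dvd_card N)
  have h1 := cZ_Je_normal hp2 hoddN hO S
  have h2 : (WZ p (S : Subgroup N)).map N.subtype = WZ p ((S : Subgroup N).map N.subtype) :=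
    WZ_map _ N.subtype_injective _
  rw [← h2]
  apply ZJ.le_normalizer_of_conj_mem
  rintro g hg _ ⟨x, hx, rfl⟩
  exact ⟨⟨g, hg⟩ * x * ⟨g, hg⟩⁻¹, h1.conj_mem x hx ⟨g, hg⟩, rfl⟩

/-- Hypothesis: every normalizer of a nontrivial `p`-subgroup is solvable with trivial `O_{p'}`. -/
def GoodLocals (p : ℕ) (G : Type*) [Group G] [Finite G] : Prop :=
  ∀ Q : Subgroup G, IsPGroup p Q → Q ≠ ⊥ →
    Group.IsSolvable (normalizer (Q : Set G)) ∧ pPrimeCore p (normalizer (Q : Set G)) = ⊥

theorem exists_sylow_normalizer_le (hp2 : p ≠ 2) (hodd : Odd (Nat.card G)) (hG : GoodLocals p G)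
    (n : ℕ) : ∀ Q : Subgroup G, IsPGroup p Q → Q ≠ ⊥ → ∀ S : Sylow p (normalizer (Q : Set G)),
      Nat.card G - Nat.card S = n →
      ∃ P : Sylow p G, normalizer (Q : Set G) ≤ normalizer (WZ p (P : Subgroup G) : Set G) := by
  induction n using Nat.strong_induction_on with
  | _ n ih =>
  intro Q hQ hQ1 S hn
  haveI := (hG Q hQ hQ1).1
  set T := (S : Subgroup (normalizer (Q : Set G))).map (normalizer (Q : Set G)).subtype with hT
  have h1 : normalizer (Q : Set G) ≤ normalizer (WZ p T : Set G) := normalizer_le_of_sylow hp2 hodd (hG Q hQ hQ1).2 S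
  have hTp : IsPGroup p T := S.isPGroup'.map _
  have hQT : Q ≤ T := by
    have h2 : IsPGroup p (Q.subgroupOf (normalizer (Q : Set G))) := hQ.comap_of_injective (normalizer (Q : Set G)).subtype (normalizer (Q : Set G)).subtype_injective
    haveI : (Q.subgroupOf (normalizer (Q : Set G))).Normal := by infer_instance
    have h3 : Q.subgroupOf (normalizer (Q : Set G)) ≤ S := h2.le_sylow_of_normal S
    intro x hx
    exact ⟨⟨x, le_normalizer hx⟩, h3 hx, rfl⟩
  have hT1 : T ≠ ⊥ := fun h => hQ1 (eq_bot_iff.mpr (hQT.trans h.le))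
  have hW1 : WZ p T ≠ ⊥ := WZ_ne_bot hTp hT1
  have hWp : IsPGroup p (WZ p T) := hTp.to_le (WZ_le T)
  have hTW : T ≤ normalizer (WZ p T : Set G) := le_normalizer.trans (normalizer_le_normalizer_WZ T)
  set M := normalizer (WZ p T : Set G) with hM
  -- a Sylow subgroup of `M` containing `T`
  have hTM : IsPGroup p (T.subgroupOf M) := hTp.comap_of_injective M.subtype M.subtype_injective
  obtain ⟨S₂, hS₂⟩ := hTM.exists_le_sylow
  have hcardT : Nat.card T = Nat.card S :=
    (Nat.card_congr ((S : Subgroup (normalizer (Q : Set G))).equivMapOfInjective _ (normalizer (Q : Set G)).subtype_injective).toEquiv).symm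
  have hcardT2 : Nat.card (T.subgroupOf M) = Nat.card T :=
    Nat.card_congr (subgroupOfEquivOfLe hTW).toEquiv
  by_cases hlt : T.subgroupOf M < (S₂ : Subgroup M)
  · have h3 : Nat.card S < Nat.card S₂ := by
      rw [← hcardT, ← hcardT2]
      exact Set.Finite.card_lt_card (Set.toFinite _) hlt
    have h4 : Nat.card S₂ ≤ Nat.card G :=
      Nat.le_of_dvd Nat.card_pos ((card_subgroup_dvd_card (S₂ : Subgroup M)).trans
        (card_subgroup_dvd_card M))
    obtain ⟨P, hP⟩ := ih (Nat.card G - Nat.card S₂) (hn ▸ (by omega)) (WZ p T) hWp hW1 S₂ rfl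
    exact ⟨P, h1.trans hP⟩
  · have h3 : T.subgroupOf M = S₂ := by
      rcases hS₂.lt_or_eq with h | h
      · exact absurd h hlt
      · exact h
    obtain ⟨P, hP⟩ := hTp.exists_le_sylow
    have h4 : T = P := by
      by_contra hne
      have h5 := Transfer.lt_normalizer_inf_of_isPGroup P.isPGroup' (lt_of_le_of_ne hP hne)
      set T' := (P : Subgroup G) ⊓ normalizer (T : Set G) with hT'
      have h6 : T' ≤ M := inf_le_right.trans (normalizer_le_normalizer_WZ T)
      have h7 : IsPGroup p (T'.subgroupOf M) :=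
        (P.isPGroup'.to_le inf_le_left).comap_of_injective M.subtype M.subtype_injective
      have h8 : (S₂ : Subgroup M) ≤ T'.subgroupOf M := by
        rw [← h3]
        intro x hx
        have h9 : T ≤ T' := le_inf hP le_normalizer
        exact h9 hx
      have h9 := S₂.is_maximal' h7 h8
      have h10 : T' ≤ T := by
        intro x hx
        have h11 : (⟨x, h6 hx⟩ : M) ∈ T'.subgroupOf M := hx
        rw [h9, ← h3] at h11
        exact h11
      have h11 : T < T' := by
        rw [hT', inf_comm]; first | exact h5 | (rw [inf_comm]; exact h5)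
      exact absurd h10 (not_le_of_gt h11)
    exact ⟨P, by rw [← h4]; exact h1⟩

/-- `M = N_G(W(P))`. -/
def MZ (p : ℕ) {G : Type*} [Group G] (P : Subgroup G) : Subgroup G := normalizer (WZ p P : Set G)

theorem le_MZ (P : Subgroup G) : P ≤ MZ p P := le_normalizer.trans (normalizer_le_normalizer_WZ P)

theorem MZ_conj (g : G) (P : Subgroup G) :
    (MZ p P).map (MulAut.conj g).toMonoidHom = MZ p (P.map (MulAut.conj g).toMonoidHom) := by
  unfold MZ
  rw [← WZ_conj]
  ext x
  constructor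
  · rintro ⟨y, hy, rfl⟩
    have hy' : y ∈ normalizer (WZ p P : Set G) := hy
    rw [mem_normalizer_iff] at hy' ⊢
    intro h
    constructor
    · rintro ⟨w, hw, rfl⟩
      refine ⟨y * w * y⁻¹, (hy' w).mp hw, ?_⟩
      simp [mul_assoc]
    · rintro ⟨w, hw, hwe⟩
      have h1 : g * w * g⁻¹ = (g * y * g⁻¹) * h * (g * y * g⁻¹)⁻¹ := hwe
      refine ⟨g⁻¹ * h * g, (hy' _).mpr ?_, ?_⟩
      · have h2 : y * (g⁻¹ * h * g) * y⁻¹ = g⁻¹ * ((g * y * g⁻¹) * h * (g * y * g⁻¹)⁻¹) * g := by group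
        rw [h2, ← h1]
        have h3 : g⁻¹ * (g * w * g⁻¹) * g = w := by group
        rw [h3]; exact hw
      · simp [mul_assoc]
  · intro hx
    refine ⟨g⁻¹ * x * g, ?_, by simp [mul_assoc]⟩
    change _ ∈ normalizer (WZ p P : Set G)
    rw [mem_normalizer_iff] at hx ⊢
    intro h
    have h1 := hx (g * h * g⁻¹)
    have h2 : ∀ w : G, g * w * g⁻¹ ∈ (WZ p P).map (MulAut.conj g).toMonoidHom ↔ w ∈ WZ p P := by
      intro w
      constructor
      · rintro ⟨v, hv, hve⟩
        have h3 : g * v * g⁻¹ = g * w * g⁻¹ := hve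
        have h4 : v = w := by simpa using h3
        rw [← h4]; exact hv
      · intro hw
        exact ⟨w, hw, rfl⟩
    rw [h2] at h1
    have h3 : x * (g * h * g⁻¹) * x⁻¹ = g * ((g⁻¹ * x * g) * h * (g⁻¹ * x * g)⁻¹) * g⁻¹ := by group
    rw [h3, h2] at h1
    exact h1

/-- move a `p`-subgroup of `M` into a Sylow subgroup with the same `W`. -/
theorem exists_sylow_ge (P : Sylow p G) {D : Subgroup G} (hD : IsPGroup p D)
    (hDM : D ≤ MZ p (P : Subgroup G)) :
    ∃ P₁ : Sylow p G, D ≤ P₁ ∧ WZ p (P₁ : Subgroup G) = WZ p (P : Subgroup G) := by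
  set M := MZ p (P : Subgroup G) with hM
  have h1 : IsPGroup p (D.subgroupOf M) := hD.comap_of_injective M.subtype M.subtype_injective
  obtain ⟨S, hS⟩ := h1.exists_le_sylow
  have hPM : (P : Subgroup G) ≤ M := le_MZ _
  obtain ⟨m, hm⟩ := MulAction.exists_smul_eq M (P.subtype hPM) S
  refine ⟨(m : G) • P, ?_, ?_⟩
  · intro x hx
    have h2 : (⟨x, hDM hx⟩ : M) ∈ (S : Subgroup M) := hS hx
    rw [← hm] at h2
    rw [Sylow.smul_def, Sylow.pointwise_smul_def] at h2
    rw [Sylow.smul_def, Sylow.pointwise_smul_def]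
    obtain ⟨y, hy, hyx⟩ := h2
    refine ⟨(y : G), hy, ?_⟩
    exact congrArg Subtype.val hyx
  · have h2 : (((m : G) • P : Sylow p G) : Subgroup G) =
        (P : Subgroup G).map (MulAut.conj (m : G)).toMonoidHom := rfl
    rw [h2, ← WZ_conj]
    exact map_conj_eq_of_mem_normalizer m.2

/-- Distinct `M`'s share no nontrivial `p`-subgroup. -/
theorem MZ_eq_of_inf (hp2 : p ≠ 2) (hodd : Odd (Nat.card G)) (hG : GoodLocals p G)
    (n : ℕ) : ∀ (P P' : Sylow p G) (D : Subgroup G), IsPGroup p D → D ≠ ⊥ →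
      D ≤ MZ p (P : Subgroup G) → D ≤ MZ p (P' : Subgroup G) → Nat.card G - Nat.card D = n →
      MZ p (P : Subgroup G) = MZ p (P' : Subgroup G) := by
  induction n using Nat.strong_induction_on with
  | _ n ih =>
  intro P P' D hD hD1 hDP hDP' hn
  obtain ⟨P₁, hP₁, hW₁⟩ := exists_sylow_ge P hD hDP
  obtain ⟨P₂, hP₂, hW₂⟩ := exists_sylow_ge P' hD hDP'
  have hM₁ : MZ p (P₁ : Subgroup G) = MZ p (P : Subgroup G) := by unfold MZ; rw [hW₁]
  have hM₂ : MZ p (P₂ : Subgroup G) = MZ p (P' : Subgroup G) := by unfold MZ; rw [hW₂]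
  obtain ⟨S⟩ : Nonempty (Sylow p (normalizer (D : Set G))) := inferInstance
  obtain ⟨P₃, hP₃⟩ := exists_sylow_normalizer_le hp2 hodd hG _ D hD hD1 S rfl
  have key : ∀ R : Sylow p G, D ≤ R → D ≠ (R : Subgroup G) →
      MZ p (R : Subgroup G) = MZ p (P₃ : Subgroup G) := by
    intro R hDR hne
    have h5 := Transfer.lt_normalizer_inf_of_isPGroup R.isPGroup' (lt_of_le_of_ne hDR hne)
    set T := normalizer (D : Set G) ⊓ (R : Subgroup G) with hT
    have hcard : Nat.card D < Nat.card T := Set.Finite.card_lt_card (Set.toFinite _) h5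
    have hcard' : Nat.card T ≤ Nat.card G := Nat.le_of_dvd Nat.card_pos (card_subgroup_dvd_card T)
    refine ih (Nat.card G - Nat.card T) (hn ▸ (by omega)) R P₃ T (R.isPGroup'.to_le inf_le_right)
      ?_ ?_ ?_ rfl
    · intro h
      rw [h] at h5
      exact hD1 (eq_bot_iff.mpr h5.le)
    · exact inf_le_right.trans (le_MZ _)
    · exact inf_le_left.trans hP₃
  by_cases h1 : D = (P₁ : Subgroup G)
  · have h2 : P₁ = P₂ := Sylow.ext (P₁.is_maximal' P₂.isPGroup' (h1 ▸ hP₂)).symm
    rw [← hM₁, ← hM₂, h2]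
  · by_cases h2 : D = (P₂ : Subgroup G)
    · have h3 : P₂ = P₁ := Sylow.ext (P₂.is_maximal' P₁.isPGroup' (h2 ▸ hP₁)).symm
      rw [← hM₁, ← hM₂, h3]
    · rw [← hM₁, ← hM₂, key P₁ hP₁ h1, key P₂ hP₂ h2]

theorem normalizer_MZ (P : Sylow p G) {g : G}
    (hg : (MZ p (P : Subgroup G)).map (MulAut.conj g).toMonoidHom = MZ p (P : Subgroup G)) :
    g ∈ MZ p (P : Subgroup G) := by
  set M := MZ p (P : Subgroup G) with hM
  have hPM : (P : Subgroup G) ≤ M := le_MZ _
  have hPM2 : ((g • P : Sylow p G) : Subgroup G) ≤ M := by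
    rw [← hg]
    exact Subgroup.map_mono hPM
  obtain ⟨m, hm⟩ := MulAction.exists_smul_eq M ((g • P : Sylow p G).subtype hPM2) (P.subtype hPM)
  have h1 : ((m : G) * g) • P = P := by
    rw [mul_smul]
    apply Sylow.ext
    apply le_antisymm
    · rintro x ⟨y, hy, rfl⟩
      have h2 : (⟨y, hPM2 hy⟩ : M) ∈ ((g • P : Sylow p G).subtype hPM2 : Subgroup M) := hy
      have h3 : m * ⟨y, hPM2 hy⟩ * m⁻¹ ∈ (P.subtype hPM : Subgroup M) := by
        rw [← hm]
        exact ⟨_, h2, rfl⟩
      exact h3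
    · intro x hx
      have h2 : (⟨x, hPM hx⟩ : M) ∈ (P.subtype hPM : Subgroup M) := hx
      rw [← hm] at h2
      obtain ⟨y, hy, hyx⟩ := h2
      exact ⟨(y : G), hy, congrArg Subtype.val hyx⟩
  have h2 : (m : G) * g ∈ normalizer ((P : Subgroup G) : Set G) :=
    Sylow.smul_eq_iff_mem_normalizer.mp h1
  have h3 : (m : G) * g ∈ M := normalizer_le_normalizer_WZ _ h2
  have h4 : (m : G)⁻¹ * ((m : G) * g) ∈ M := mul_mem (inv_mem m.2) h3
  simpa using h4

/-- `N_G(Z(J(P)))` contains every element conjugating a nonidentity element of `P` into `P`. -/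
theorem mem_MZ_of_conj (hp2 : p ≠ 2) (hodd : Odd (Nat.card G)) (hG : GoodLocals p G)
    (P : Sylow p G) {x g : G} (hx : x ∈ P) (hx1 : x ≠ 1) (hg : g * x * g⁻¹ ∈ P) :
    g ∈ MZ p (P : Subgroup G) := by
  have h1 : x ∈ MZ p ((g⁻¹ • P : Sylow p G) : Subgroup G) := by
    apply le_MZ
    refine ⟨g * x * g⁻¹, hg, ?_⟩
    simp [mul_assoc]
  have h2 : x ∈ MZ p (P : Subgroup G) := le_MZ _ hx
  have h3 : IsPGroup p (zpowers x) := P.isPGroup'.to_le (by rwa [zpowers_le])
  have h4 := MZ_eq_of_inf hp2 hodd hG _ (g⁻¹ • P) P (zpowers x) h3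
    (by rw [Ne, zpowers_eq_bot]; exact hx1) (by rwa [zpowers_le]) (by rwa [zpowers_le]) rfl
  have h5 : g⁻¹ ∈ MZ p (P : Subgroup G) := by
    apply normalizer_MZ
    rw [MZ_conj]
    exact h4
  simpa using inv_mem h5

theorem controlsFusion_MZ (hp2 : p ≠ 2) (hodd : Odd (Nat.card G)) (hG : GoodLocals p G)
    (P : Sylow p G) : Transfer.ControlsFusion (MZ p (P : Subgroup G)) (P : Subgroup G) := by
  intro x hx g hg
  by_cases hx1 : x = 1
  · exact ⟨1, one_mem _, by simp [hx1]⟩
  · exact ⟨g, mem_MZ_of_conj hp2 hodd hG P hx hx1 hg, rfl⟩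

end

end Cfsg.Agent.H25.CN
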