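import Cfsg.Agent.H25.CNThree

/-!
Structure of minimal simple CN-groups of odd order.
-/

set_option autoImplicit false
set_option linter.style.haveILetI false
set_option linter.unusedSimpArgs false
set_option linter.unusedVariables false
set_option linter.unusedSectionVars false

open Cfsg Subgroup
open scoped Pointwise commutatorElement

namespace Cfsg.Agent.H25.CN

universe u

section

variable {G : Type u} [Group G] [Finite G]

theorem nil_of_comm {X : Type*} [Group X] (h : ∀ a b : X, a * b = b * a) : Group.IsNilpotent X := by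
  letI : CommGroup X := { (inferInstance : Group X) with mul_comm := h }
  exact (inferInstance : @Group.IsNilpotent X CommGroup.toGroup)

theorem nil_zpowers {X : Type*} [Group X] (x : X) : Group.IsNilpotent (zpowers x) := by
  apply nil_of_comm
  rintro ⟨a, ha⟩ ⟨b, hb⟩
  obtain ⟨m, rfl⟩ := ha
  obtain ⟨n, rfl⟩ := hb
  exact Subtype.ext (zpow_mul_comm x m n)

/-- Structure of proper subgroups. -/
theorem proper_structure (hG : IsMinSimpleOddOrder G) (hCN : IsCNGroup G) {M : Subgroup G}
    (hM : M ≠ ⊤) : Group.IsNilpotent M ∨ (fittingHall M ≠ ⊥ ∧ fittingHall M ≠ ⊤ ∧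
      ∃ E : Subgroup M, IsComplement' (fittingHall M) E ∧ IsFrobeniusComplement E ∧
        (∀ e ∈ E, e ≠ 1 → fittingHall M ⊓ centralizer ({e} : Set M) = ⊥) ∧ Group.IsNilpotent E) := by
  haveI := hG.2.2.2 M hM
  rcases NF_or_threeStep (cn_of_injective M.subtype M.subtype_injective hCN) with h | ⟨p, hp, h⟩
  · exact h.2
  · exact absurd h (no_threeStep hG hCN M p)

/-- A proper subgroup with a nontrivial normal `p`-subgroup has a normal Sylow `p`-subgroup. -/
theorem sylow_normal_of_proper {p : ℕ} [hpf : Fact p.Prime] (hG : IsMinSimpleOddOrder G)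
    (hCN : IsCNGroup G) {M : Subgroup G} (hM : M ≠ ⊤) {D : Subgroup M} (hDn : D.Normal)
    (hD : IsPGroup p D) (hD1 : D ≠ ⊥) (S : Sylow p M) : (S : Subgroup M).Normal := by
  rcases proper_structure hG hCN hM with h | ⟨h1, h2, E, hE, hEc, hEf, hEn⟩
  · haveI := h
    infer_instance
  · set F := fittingHall M with hF
    have hFn := fittingHall_nilpotent M
    have hFh := H23.fittingHall_coprime M
    rw [← hF] at hFn hFh
    have hDF : D ⊓ F ≠ ⊥ := by
      intro h
      obtain ⟨⟨d, hd⟩, hd1⟩ := (Subgroup.ne_bot_iff_exists_ne_one).mp hD1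
      obtain ⟨⟨f, hf⟩, hf1⟩ := (Subgroup.ne_bot_iff_exists_ne_one).mp h1
      have hd1' : d ≠ 1 := fun h0 => hd1 (Subtype.ext h0)
      have hcomm : f * d = d * f := by
        have h3 : f * d * f⁻¹ * d⁻¹ ∈ D ⊓ F := by
          refine mem_inf.mpr ⟨D.mul_mem (hDn.conj_mem d hd f) (D.inv_mem hd), ?_⟩
          have h4 : f * d * f⁻¹ * d⁻¹ = f * (d * f⁻¹ * d⁻¹) := by group
          rw [h4]
          exact F.mul_mem hf ((inferInstance : F.Normal).conj_mem _ (F.inv_mem hf) d)
        rw [h, mem_bot, mul_inv_eq_one, mul_inv_eq_iff_eq_mul] at h3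
        exact h3
      have hdF : d ∉ F := by
        intro h0
        have : d ∈ D ⊓ F := mem_inf.mpr ⟨hd, h0⟩
        rw [h, mem_bot] at this
        exact hd1' this
      exact hf1 (Subtype.ext (fpf_of_mem_sup hEf (by rw [hE.sup_eq_top]; trivial) hdF hf hcomm))
    have hpF : p ∣ Nat.card F := by
      have h3 : IsPGroup p (D ⊓ F : Subgroup M) := hD.to_le inf_le_left
      rcases h3.card_eq_or_dvd with h | h
      · exact absurd (Subgroup.card_eq_one.mp h) hDF
      · exact h.trans (Subgroup.card_dvd_of_le inf_le_right)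
    have hcop : F.index.Coprime p := (Nat.Coprime.coprime_dvd_left hpF hFh).symm
    have hSF : (S : Subgroup M) ≤ F := by
      intro s hs
      refine mem_of_mem_normalizer_of_coprime (by rw [normalizer_eq_top]; trivial) ?_
      obtain ⟨k, hk⟩ := pel_of_mem S.isPGroup' hs
      exact (Nat.Coprime.coprime_dvd_left (orderOf_dvd_of_pow_eq_one hk) (hcop.pow_right k).symm)
    constructor
    intro s hs g
    obtain ⟨k, hk⟩ := pel_of_mem S.isPGroup' hs
    have h3 : g * s * g⁻¹ ∈ F := (inferInstance : F.Normal).conj_mem s (hSF hs) g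
    have h4 := mem_sylow_of_nil (p := p) hFn (S.subtype hSF) h3 ⟨k, by rw [conj_pow, hk]; group⟩
    exact h4

/-- Sylow subgroups are TI. -/
theorem sylow_TI {p : ℕ} [hpf : Fact p.Prime] (hG : IsMinSimpleOddOrder G) (hCN : IsCNGroup G)
    (n : ℕ) : ∀ P Q : Sylow p G, Nat.card G - Nat.card ((P : Subgroup G) ⊓ Q : Subgroup G) = n →
      (P : Subgroup G) ⊓ Q ≠ ⊥ → P = Q := by
  induction n using Nat.strong_induction_on with
  | _ n ih =>
  intro P Q hn hne
  by_contra hPQ
  set D := (P : Subgroup G) ⊓ Q with hD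
  have hDP : D < P := by
    refine lt_of_le_of_ne inf_le_left ?_
    intro h
    apply hPQ
    apply Sylow.ext
    have h1 : (P : Subgroup G) ≤ Q := by rw [← h]; exact inf_le_right
    exact (P.is_maximal' Q.isPGroup' h1).symm
  have hDQ : D < Q := by
    refine lt_of_le_of_ne inf_le_right ?_
    intro h
    apply hPQ
    apply Sylow.ext
    have h1 : (Q : Subgroup G) ≤ P := by rw [← h]; exact inf_le_left
    exact (Q.is_maximal' P.isPGroup' h1)
  have hDp : IsPGroup p D := P.isPGroup'.to_le hDP.le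
  have h1 := Transfer.lt_normalizer_inf_of_isPGroup P.isPGroup' hDP
  have h2 := Transfer.lt_normalizer_inf_of_isPGroup Q.isPGroup' hDQ
  set N := normalizer (D : Set G) with hN
  have hNt : N ≠ ⊤ :=
    simple_normalizer_ne_top hG hne (by haveI := hDp.isNilpotent; infer_instance)
  obtain ⟨S⟩ : Nonempty (Sylow p N) := inferInstance
  have hSn : (S : Subgroup N).Normal := by
    refine sylow_normal_of_proper hG hCN hNt (D := D.subgroupOf N) (by rw [hN]; infer_instance)
      (hDp.comap_of_injective N.subtype N.subtype_injective) ?_ S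
    intro h
    apply hne
    rw [eq_bot_iff]
    intro x hx
    have h3 : (⟨x, le_normalizer hx⟩ : N) ∈ D.subgroupOf N := hx
    rw [h, mem_bot] at h3
    exact mem_bot.mpr (congrArg Subtype.val h3)
  -- every `p`-subgroup of `N` is in `S`
  have hle : ∀ R : Subgroup G, IsPGroup p R → N ⊓ R ≤ (S : Subgroup N).map N.subtype := by
    intro R hR x hx
    have h3 : IsPGroup p ((N ⊓ R).subgroupOf N) :=
      (hR.to_le inf_le_right).comap_of_injective N.subtype N.subtype_injective
    have h4 : ((N ⊓ R).subgroupOf N) ⊔ (S : Subgroup N) = S := by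
      apply S.is_maximal' _ le_sup_right
      exact h3.to_sup_of_normal_right S.isPGroup'
    have h5 : (⟨x, hx.1⟩ : N) ∈ (S : Subgroup N) := by
      rw [← h4]
      exact (le_sup_left : (N ⊓ R).subgroupOf N ≤ _) hx
    exact ⟨_, h5, rfl⟩
  obtain ⟨T, hT⟩ := (S.isPGroup'.map N.subtype).exists_le_sylow
  have hbig : ∀ R : Sylow p G, D < N ⊓ R → R = T := by
    intro R hR
    have h3 : N ⊓ R ≤ (R : Subgroup G) ⊓ T := le_inf inf_le_right ((hle R R.isPGroup').trans hT)
    have h4 : Nat.card D < Nat.card ((R : Subgroup G) ⊓ T : Subgroup G) :=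
      Set.Finite.card_lt_card (Set.toFinite _) (lt_of_lt_of_le hR h3)
    have h5 : Nat.card ((R : Subgroup G) ⊓ T : Subgroup G) ≤ Nat.card G :=
      Nat.le_of_dvd Nat.card_pos (card_subgroup_dvd_card _)
    refine ih _ (hn ▸ (by omega)) R T rfl ?_
    intro h
    rw [h, ] at h3
    exact (not_lt_bot (lt_of_lt_of_le hR h3))
  exact hPQ ((hbig P h1).trans (hbig Q h2).symm)

/-- Maximal nilpotent subgroups are TI. -/
theorem maxNil_TI (hG : IsMinSimpleOddOrder G) (hCN : IsCNGroup G) {H : Subgroup G} (hH : MaxNil H) :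
    IsTI H := by
  by_cases hpp : IsPrimePow (Nat.card H)
  · obtain ⟨p, n, hp, hn, hpn⟩ := hpp
    have hp' : p.Prime := hp.nat_prime
    haveI : Fact p.Prime := ⟨hp'⟩
    have hHp : IsPGroup p H := IsPGroup.iff_card.mpr ⟨n, hpn.symm⟩
    obtain ⟨S, hS⟩ := hHp.exists_le_sylow
    have hHS : (S : Subgroup G) = H := hH.2 S S.isPGroup'.isNilpotent hS
    intro g hg
    by_contra hne
    apply hg
    have h1 : ((g • S : Sylow p G) : Subgroup G) = H.map (MulAut.conj g).toMonoidHom := by
      rw [← hHS]; rfl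
    have h2 := sylow_TI hG hCN _ S (g • S) rfl (by rw [h1, hHS]; exact hne)
    rw [← h1, ← h2, hHS]
  · exact isTI_of_not_primePow hCN hH hpp

theorem centralizer_le_maxNil (hG : IsMinSimpleOddOrder G) (hCN : IsCNGroup G) {H : Subgroup G}
    (hH : MaxNil H) {x : G} (hx : x ∈ H) (hx1 : x ≠ 1) : centralizer ({x} : Set G) ≤ H :=
  centralizer_le_of_TI hCN hH (maxNil_TI hG hCN hH) hx hx1

theorem maxNil_eq (hG : IsMinSimpleOddOrder G) (hCN : IsCNGroup G) {H₁ H₂ : Subgroup G}
    (h₁ : MaxNil H₁) (h₂ : MaxNil H₂) {x : G} (hx1 : x ≠ 1) (hx₁ : x ∈ H₁) (hx₂ : x ∈ H₂) :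
    H₁ = H₂ :=
  eq_of_centralizer_le hCN h₁ h₂ (fun _ hx hx1 => centralizer_le_maxNil hG hCN h₁ hx hx1)
    (fun _ hx hx1 => centralizer_le_maxNil hG hCN h₂ hx hx1) hx1 hx₁ hx₂

theorem not_nilpotent (hG : IsMinSimpleOddOrder G) : ¬ Group.IsNilpotent G := by
  intro h
  haveI := hG.2.1
  apply hG.2.2.1
  haveI : Group.IsSolvable G := by haveI := h; infer_instance
  exact ⟨⟨(IsSimpleGroup.comm_iff_isSolvable (G := G)).mpr inferInstance⟩⟩

theorem maxNil_ne_bot (hG : IsMinSimpleOddOrder G) {H : Subgroup G} (hH : MaxNil H) : H ≠ ⊥ := by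
  rintro rfl
  haveI := hG.2.1
  obtain ⟨x, hx⟩ := exists_ne (1 : G)
  have h1 := hH.2 (zpowers x) (nil_zpowers x) bot_le
  rw [zpowers_eq_bot] at h1
  exact hx h1

theorem maxNil_ne_top (hG : IsMinSimpleOddOrder G) {H : Subgroup G} (hH : MaxNil H) : H ≠ ⊤ := by
  rintro rfl
  apply not_nilpotent hG
  haveI := hH.1
  exact Group.nilpotent_of_mulEquiv (Subgroup.topEquiv (G := G))

theorem maxNil_normalizer_ne_top (hG : IsMinSimpleOddOrder G) {H : Subgroup G} (hH : MaxNil H) :
    normalizer (H : Set G) ≠ ⊤ :=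
  simple_normalizer_ne_top hG (maxNil_ne_bot hG hH) (by haveI := hH.1; infer_instance)

/-- A maximal nilpotent subgroup is not self-normalizing. -/
theorem maxNil_normalizer_ne (hG : IsMinSimpleOddOrder G) (hCN : IsCNGroup G) {H : Subgroup G}
    (hH : MaxNil H) : normalizer (H : Set G) ≠ H := by
  intro hN
  haveI := hG.2.1
  have h1 : IsFrobeniusComplement H := by
    refine ⟨maxNil_ne_bot hG hH, maxNil_ne_top hG hH, fun g hg => ?_⟩
    have h2 := maxNil_TI hG hCN hH g (fun h => hg (by
      rw [← hN]; exact mem_normalizer_of_map_eq h))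
    exact h2
  obtain ⟨N, -, hNn, hNH⟩ := Frob.exists_normal_complement h1
  rcases hNn.eq_bot_or_eq_top with h | h
  · subst h
    rw [Subgroup.isComplement'_bot_left] at hNH
    exact maxNil_ne_top hG hH hNH
  · subst h
    rw [Subgroup.isComplement'_top_left] at hNH
    exact maxNil_ne_bot hG hH hNH

/-- A normal nilpotent subgroup of `M` puts `M` into the normalizer of a maximal nilpotent subgroup. -/
theorem le_normalizer_maxNil (hG : IsMinSimpleOddOrder G) (hCN : IsCNGroup G) {M F H : Subgroup G}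
    (hF : M ≤ normalizer (F : Set G)) (hF1 : F ≠ ⊥) (hH : MaxNil H) (hFH : F ≤ H) :
    M ≤ normalizer (H : Set G) := by
  intro m hm
  apply mem_normalizer_of_map_eq
  obtain ⟨⟨f, hf⟩, hf1⟩ := (Subgroup.ne_bot_iff_exists_ne_one).mp hF1
  have hf1' : f ≠ 1 := fun h0 => hf1 (Subtype.ext h0)
  refine maxNil_eq hG hCN (hH.conj m) hH hf1' ?_ (hFH hf)
  refine ⟨m⁻¹ * f * m, hFH ?_, by simp [mul_assoc]⟩
  have h1 := (mem_normalizer_iff.mp (inv_mem (hF hm)) f).mp hf
  simpa using h1

theorem isCyclic_complement (hG : IsMinSimpleOddOrder G) (hCN : IsCNGroup G) {M : Subgroup G}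
    {E : Subgroup M} (hEc : IsFrobeniusComplement E) (hEn : Group.IsNilpotent E) : IsCyclic E := by
  rcases complement_structure hEn (Frob.IsFrobeniusComplement.hasFPFModule hEc) with h | ⟨C, Q, hCQ, -, -, -, n, ⟨e⟩⟩
  · exact h
  · exfalso
    haveI : NeZero (2 ^ n) := ⟨pow_ne_zero _ two_ne_zero⟩
    have h1 : Nat.card Q = 4 * 2 ^ n := by
      rw [Nat.card_congr e.toEquiv, Nat.card_eq_fintype_card, QuaternionGroup.card]
    have h2 : 2 ∣ Nat.card G := by
      have h3 : 2 ∣ Nat.card Q := by rw [h1]; exact ⟨2 * 2 ^ n, by ring⟩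
      exact h3.trans ((card_subgroup_dvd_card Q).trans (card_subgroup_dvd_card M))
    have h3 := hG.1
    rw [← Nat.not_even_iff_odd, even_iff_two_dvd] at h3
    exact h3 h2

/-- The structure of the normalizer of a maximal nilpotent subgroup. -/
theorem maxNil_structure (hG : IsMinSimpleOddOrder G) (hCN : IsCNGroup G) {H : Subgroup G}
    (hH : MaxNil H) : IsCoatom (normalizer (H : Set G)) ∧
      (∃ E : Subgroup G, IsComplIn H E (normalizer (H : Set G)) ∧ E ≠ ⊥ ∧
        ∀ e ∈ E, e ≠ 1 → H ⊓ centralizer ({e} : Set G) = ⊥) ∧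
      fittingHallOf (normalizer (H : Set G)) = H := by
  obtain ⟨M, hM, hNM⟩ :=
    (eq_top_or_exists_le_coatom (normalizer (H : Set G))).resolve_left (maxNil_normalizer_ne_top hG hH)
  have hHM : H ≤ M := le_normalizer.trans hNM
  rcases proper_structure hG hCN hM.1 with h | ⟨h1, h2, E, hE, hEc, hEf, hEn⟩
  · exfalso
    have h3 := hH.2 M h hHM
    apply maxNil_normalizer_ne hG hCN hH
    exact le_antisymm (hNM.trans h3.le) le_normalizer
  · set F := fittingHall M with hF
    have hFn := fittingHall_nilpotent M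
    rw [← hF] at hFn
    -- the maximal nilpotent subgroup containing `F`
    obtain ⟨H', hH', hFH'⟩ := exists_maxNil_ge (nil_map hFn M.subtype)
    have hF1 : F.map M.subtype ≠ ⊥ := by
      rw [Ne, Subgroup.map_eq_bot_iff_of_injective _ M.subtype_injective]; exact h1
    have hFM : M ≤ normalizer (F.map M.subtype : Set G) := by
      apply ZJ.le_normalizer_of_conj_mem
      rintro g hg _ ⟨x, hx, rfl⟩
      exact ⟨⟨g, hg⟩ * x * ⟨g, hg⟩⁻¹, (inferInstance : F.Normal).conj_mem x hx ⟨g, hg⟩, rfl⟩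
    have hMH' := le_normalizer_maxNil hG hCN hFM hF1 hH' hFH'
    have hMeq : normalizer (H' : Set G) = M := by
      rcases hM.le_iff.mp hMH' with h | h
      · exact absurd h (maxNil_normalizer_ne_top hG hH')
      · exact h
    have hH'M : H' ≤ M := by rw [← hMeq]; exact le_normalizer
    have hFeq : F.map M.subtype = H' := by
      apply le_antisymm hFH'
      have h3 : H'.subgroupOf M ≤ F := by
        refine le_fittingHall ?_ ?_ ?_
        · subst hMeq; infer_instance
        · exact nil_of_inj hH'.1 ((Subgroup.subgroupOfEquivOfLe hH'M).toMonoidHom)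
            (Subgroup.subgroupOfEquivOfLe hH'M).injective
        · rw [Nat.card_congr (subgroupOfEquivOfLe hH'M).toEquiv]
          exact Nat.Coprime.coprime_dvd_right (relIndex_dvd_index_of_le hH'M) (maxNil_hall hCN hH')
      intro x hx
      exact ⟨⟨x, hH'M hx⟩, h3 hx, rfl⟩
    have hHH' : H = H' := by
      by_contra hne
      have hdis : ∀ x, x ∈ H → x ∈ H' → x = 1 := by
        intro x hx hx'
        by_contra hx1
        exact hne (maxNil_eq hG hCN hH hH' hx1 hx hx')
      obtain ⟨⟨h, hh⟩, hh1⟩ := (Subgroup.ne_bot_iff_exists_ne_one).mp (maxNil_ne_bot hG hH)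
      have hh1' : h ≠ 1 := fun h0 => hh1 (Subtype.ext h0)
      have hdis2 : ∀ x ∈ normalizer (H : Set G), x ∈ H' → x = 1 := by
        intro x hx hx'
        have h3 : x * h * x⁻¹ * h⁻¹ = 1 := by
          apply hdis
          · exact H.mul_mem ((mem_normalizer_iff.mp hx h).mp hh) (H.inv_mem hh)
          · have h4 : x * h * x⁻¹ * h⁻¹ = x * (h * x⁻¹ * h⁻¹) := by group
            rw [h4]
            refine H'.mul_mem hx' ?_
            have h5 : h ∈ normalizer (H' : Set G) := hMH' (hHM hh)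
            exact (mem_normalizer_iff.mp h5 _).mp (H'.inv_mem hx')
        rw [mul_inv_eq_one, mul_inv_eq_iff_eq_mul] at h3
        have h4 : x ∈ centralizer ({h} : Set G) := by rw [mem_centralizer_singleton_iff]; exact h3
        exact hdis x (centralizer_le_maxNil hG hCN hH hh hh1' h4) hx'
      -- the normalizer is cyclic
      have hEcyc := isCyclic_complement hG hCN hEc hEn
      have hQcyc : IsCyclic (M ⧸ F) := by
        have h3 : Function.Surjective ((QuotientGroup.mk' F).comp E.subtype) := by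
          intro q
          induction q using QuotientGroup.induction_on with
          | H y =>
            have h4 : y ∈ F ⊔ E := by rw [hE.sup_eq_top]; trivial
            obtain ⟨f, hf, e, he, rfl⟩ := (Subgroup.mem_sup_of_normal_left).mp h4
            refine ⟨⟨e, he⟩, ?_⟩
            change ((e : M) : M ⧸ F) = ((f * e : M) : M ⧸ F)
            rw [QuotientGroup.mk_mul, (QuotientGroup.eq_one_iff f).mpr hf, one_mul]
        exact isCyclic_of_surjective _ h3
      have hNcyc : IsCyclic (normalizer (H : Set G)) := by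
        refine isCyclic_of_injective ((QuotientGroup.mk' F).comp (Subgroup.inclusion hNM)) ?_
        rw [injective_iff_map_eq_one]
        intro x hx
        rw [MonoidHom.comp_apply, QuotientGroup.mk'_apply, QuotientGroup.eq_one_iff] at hx
        have h4 : (x : G) ∈ H' := by
          rw [← hFeq]
          exact ⟨_, hx, rfl⟩
        exact Subtype.ext (hdis2 x x.2 h4)
      have h5 : Group.IsNilpotent (normalizer (H : Set G)) := by
        haveI : IsMulCommutative (normalizer (H : Set G)) := hNcyc.isMulCommutative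
        exact nil_of_comm (fun a b => mul_comm' a b)
      exact maxNil_normalizer_ne hG hCN hH (hH.2 _ h5 le_normalizer)
    subst hHH'
    rw [hMeq]
    refine ⟨hM, ⟨E.map M.subtype, ⟨hH'M, Subgroup.map_subtype_le _, ?_, ?_⟩, ?_, ?_⟩, hFeq⟩
    · rw [← hFeq, ← Subgroup.map_inf _ _ _ M.subtype_injective, hE.disjoint.eq_bot, Subgroup.map_bot]
    · intro m hm
      have h4 : (⟨m, hm⟩ : M) ∈ F ⊔ E := by rw [hE.sup_eq_top]; trivial
      obtain ⟨f, hf, e, he, hfe⟩ := (Subgroup.mem_sup_of_normal_left).mp h4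
      exact ⟨f, by rw [← hFeq]; exact ⟨f, hf, rfl⟩, e, ⟨e, he, rfl⟩, (congrArg Subtype.val hfe).symm⟩
    · rw [Ne, Subgroup.map_eq_bot_iff_of_injective _ M.subtype_injective]; exact hEc.1
    · rintro _ ⟨e, he, rfl⟩ he1
      have he1' : e ≠ 1 := fun h0 => he1 (by rw [h0]; rfl)
      rw [eq_bot_iff]
      rintro x ⟨hx, hxe⟩
      rw [SetLike.mem_coe, ← hFeq] at hx
      obtain ⟨f, hf, rfl⟩ := hx
      have h5 : f ∈ F ⊓ centralizer ({e} : Set M) := by
        refine mem_inf.mpr ⟨hf, ?_⟩
        rw [mem_centralizer_singleton_iff]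
        have h6 : ((f : M) : G) ∈ centralizer ({(e : G)} : Set G) := hxe
        rw [mem_centralizer_singleton_iff] at h6
        exact Subtype.ext h6
      rw [hEf e he he1', mem_bot] at h5
      rw [h5]
      exact mem_bot.mpr rfl

/-- Every maximal subgroup is the normalizer of a maximal nilpotent subgroup. -/
theorem coatom_structure (hG : IsMinSimpleOddOrder G) (hCN : IsCNGroup G) {M : Subgroup G}
    (hM : IsCoatom M) : ∃ H : Subgroup G, MaxNil H ∧ M = normalizer (H : Set G) := by
  have key : ∃ F : Subgroup G, Group.IsNilpotent F ∧ F ≠ ⊥ ∧ M ≤ normalizer (F : Set G) := by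
    rcases proper_structure hG hCN hM.1 with h | ⟨h1, -⟩
    · refine ⟨M, h, ?_, le_normalizer⟩
      rintro rfl
      haveI := hG.2.1
      obtain ⟨x, hx⟩ := exists_ne (1 : G)
      have h2 : zpowers x = ⊤ := by
        apply hM.2
        rw [bot_lt_iff_ne_bot, Ne, zpowers_eq_bot]; exact hx
      apply not_nilpotent hG
      have h3 : Group.IsNilpotent (⊤ : Subgroup G) := by
        rw [← h2]; exact nil_zpowers x
      haveI := h3
      exact Group.nilpotent_of_mulEquiv (Subgroup.topEquiv (G := G))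
    · refine ⟨(fittingHall M).map M.subtype, nil_map (fittingHall_nilpotent M) _, ?_, ?_⟩
      · rw [Ne, Subgroup.map_eq_bot_iff_of_injective _ M.subtype_injective]; exact h1
      · apply ZJ.le_normalizer_of_conj_mem
        rintro g hg _ ⟨x, hx, rfl⟩
        exact ⟨⟨g, hg⟩ * x * ⟨g, hg⟩⁻¹,
          (inferInstance : (fittingHall M).Normal).conj_mem x hx ⟨g, hg⟩, rfl⟩
  obtain ⟨F, hFn, hF1, hFM⟩ := key
  obtain ⟨H, hH, hFH⟩ := exists_maxNil_ge hFn
  refine ⟨H, hH, ?_⟩
  rcases hM.le_iff.mp (le_normalizer_maxNil hG hCN hFM hF1 hH hFH) with h | h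
  · exact absurd h (maxNil_normalizer_ne_top hG hH)
  · exact h.symm

/-- Two maximal nilpotent subgroups are conjugate or of coprime orders. -/
theorem maxNil_conj_or_coprime (hG : IsMinSimpleOddOrder G) (hCN : IsCNGroup G)
    {H₁ H₂ : Subgroup G} (h₁ : MaxNil H₁) (h₂ : MaxNil H₂) {p : ℕ} (hp : p.Prime)
    (hp₁ : p ∣ Nat.card H₁) (hp₂ : p ∣ Nat.card H₂) :
    ∃ g : G, H₂ = H₁.map (MulAut.conj g).toMonoidHom := by
  haveI : Fact p.Prime := ⟨hp⟩
  have key : ∀ H : Subgroup G, MaxNil H → p ∣ Nat.card H → ∃ S : Sylow p G, (S : Subgroup G) ≤ H := by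
    intro L hL hpL
    obtain ⟨S'⟩ : Nonempty (Sylow p L) := inferInstance
    have hidx : ¬ p ∣ ((S' : Subgroup L).map L.subtype).index := by
      rw [Subgroup.index_map_subtype]
      intro h
      rcases (Nat.Prime.dvd_mul hp).mp h with h | h
      · exact S'.not_dvd_index h
      · have := Nat.Coprime.eq_one_of_dvd (Nat.Coprime.coprime_dvd_left hpL (maxNil_hall hCN hL)) h
        exact hp.one_lt.ne' this
    exact ⟨(S'.isPGroup'.map L.subtype).toSylow hidx, Subgroup.map_subtype_le _⟩
  obtain ⟨S₁, hS₁⟩ := key H₁ h₁ hp₁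
  obtain ⟨S₂, hS₂⟩ := key H₂ h₂ hp₂
  obtain ⟨g, hg⟩ := MulAction.exists_smul_eq G S₁ S₂
  refine ⟨g, ?_⟩
  have hpG : p ∣ Nat.card G := hp₁.trans (card_subgroup_dvd_card H₁)
  have hS2 : (S₂ : Subgroup G) ≠ ⊥ := S₂.ne_bot_of_dvd_card hpG
  obtain ⟨⟨x, hx⟩, hx1⟩ := (Subgroup.ne_bot_iff_exists_ne_one).mp hS2
  have hx1' : x ≠ 1 := fun h0 => hx1 (Subtype.ext h0)
  refine maxNil_eq hG hCN h₂ (h₁.conj g) hx1' (hS₂ hx) ?_
  rw [← hg] at hx
  obtain ⟨y, hy, hyx⟩ := hx
  exact ⟨y, hS₁ hy, hyx⟩

end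

end Cfsg.Agent.H25.CN
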