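import Cfsg.Agent.H25.CNFrob
import Cfsg.Agent.Hall.Hall
import Cfsg.Agent.H63.PLen

/-!
Solvable CN-groups: nilpotent, Frobenius, or three-step groups.
-/

set_option autoImplicit false
set_option linter.style.haveILetI false
set_option linter.unusedSimpArgs false
set_option linter.unusedVariables false
set_option linter.unusedSectionVars false

open Cfsg Subgroup

namespace Cfsg.Agent.H25.CN

universe u

theorem comm_of_pel_odd {G : Type u} [Group G] [Finite G] {K : Subgroup G} (hK : Group.IsNilpotent K)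
    (hmod : Frob.HasFPFModule K) {r : ℕ} [hr : Fact r.Prime] (hr2 : r ≠ 2) {x y : G} (hx : x ∈ K)
    (hy : y ∈ K) (hxr : ∃ k, x ^ r ^ k = 1) (hyr : ∃ k, y ^ r ^ k = 1) : x * y = y * x := by
  obtain ⟨P⟩ : Nonempty (Sylow r K) := inferInstance
  have h1 := mem_sylow_of_nil hK P hx hxr
  have h2 := mem_sylow_of_nil hK P hy hyr
  have h3 := (hmod.subgroup (P : Subgroup K)).unique_subgroup_of_isPGroup P.isPGroup'
  rcases S0016.result r P.isPGroup' h3 with h4 | ⟨h5, _⟩
  · haveI := h4
    have h6 : (⟨⟨x, hx⟩, h1⟩ : (P : Subgroup K)) * ⟨⟨y, hy⟩, h2⟩ = ⟨⟨y, hy⟩, h2⟩ * ⟨⟨x, hx⟩, h1⟩ :=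
      (inferInstance : IsMulCommutative (P : Subgroup K)).is_comm.comm _ _
    exact congrArg (fun t : (P : Subgroup K) => ((t : K) : G)) h6
  · exact absurd h5 hr2

/-- elements of prime power orders commute ⇒ all elements commute -/
theorem commute_of_forall_pel {G : Type*} [Group G] [Finite G] {K F : Subgroup G}
    (h : ∀ r : ℕ, r.Prime → ∀ s : ℕ, s.Prime → ∀ x ∈ K, ∀ y ∈ F, (∃ k, x ^ r ^ k = 1) →
      (∃ k, y ^ s ^ k = 1) → x * y = y * x) : K ≤ centralizer (F : Set G) := by
  apply le_of_forall_pel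
  intro r hr x hx hxr
  have h1 : F ≤ centralizer ({x} : Set G) := by
    apply le_of_forall_pel
    intro s hs y hy hys
    rw [mem_centralizer_singleton_iff]
    exact (h r hr s hs x hx y hy hxr hys).symm
  rw [mem_centralizer_iff]
  intro y hy
  exact mem_centralizer_singleton_iff.mp (h1 hy)

theorem hall_step {Q : Type u} [Group Q] [Finite Q] [Group.IsSolvable Q] (hCN : IsCNGroup Q)
    (hnn : ¬ Group.IsNilpotent Q) (K : Subgroup Q) (hK : Group.IsNilpotent K)
    (hmod : Frob.HasFPFModule K) (hF : fittingSubgroup Q ≤ K) :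
    K = fittingSubgroup Q ∧ Odd (Nat.card K) ∧ IsCyclic K := by
  -- the Fitting subgroup has odd order
  have hodd : ¬ 2 ∣ Nat.card (fittingSubgroup Q) := by
    intro h2
    haveI : Fact (Nat.Prime 2) := ⟨Nat.prime_two⟩
    obtain ⟨t, ht⟩ := exists_prime_orderOf_dvd_card' 2 h2
    have ht1 : (t : Q) ≠ 1 := by
      intro h
      have : t = 1 := Subtype.ext h
      rw [this, orderOf_one] at ht
      omega
    have htt : (t : Q) * t = 1 := by
      have h3 := pow_orderOf_eq_one (t : Q)
      rw [Subgroup.orderOf_coe, ht, pow_two] at h3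
      exact h3
    apply hnn
    apply nilpotent_of_center_ne_bot hCN
    intro h
    apply ht1
    have : (t : Q) ∈ center Q := by
      rw [mem_center_iff]
      intro g
      have hgF : g * t * g⁻¹ ∈ fittingSubgroup Q :=
        (inferInstance : (fittingSubgroup Q).Normal).conj_mem t t.2 g
      have h4 := hmod.eq_of_involution (s := ⟨t, hF t.2⟩) (t := ⟨g * t * g⁻¹, hF hgF⟩)
        (Subtype.ext htt) (fun h => ht1 (congrArg Subtype.val h))
        (Subtype.ext (by
          change g * t * g⁻¹ * (g * t * g⁻¹) = 1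
          have : g * t * g⁻¹ * (g * t * g⁻¹) = g * (t * t) * g⁻¹ := by group
          rw [this, htt]; group))
        (fun h => ht1 (by
          have h5 : g * t * g⁻¹ = 1 := congrArg Subtype.val h
          rw [mul_inv_eq_one] at h5
          simpa using h5))
      have h5 : (t : Q) = g * t * g⁻¹ := congrArg Subtype.val h4
      rw [eq_mul_inv_iff_mul_eq] at h5
      exact h5.symm
    rw [h, mem_bot] at this
    exact this
  have hcent : K ≤ centralizer (fittingSubgroup Q : Set Q) := by
    apply commute_of_forall_pel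
    intro r hr s hs x hx y hy hxr hys
    haveI : Fact r.Prime := ⟨hr⟩
    haveI : Fact s.Prime := ⟨hs⟩
    by_cases hrs : r = s
    · subst hrs
      by_cases hy1 : y = 1
      · rw [hy1]; simp
      have hr2 : r ≠ 2 := by
        rintro rfl
        apply hodd
        obtain ⟨k, hk⟩ := hys
        obtain ⟨j, _, hj⟩ := (Nat.dvd_prime_pow hr).mp (orderOf_dvd_of_pow_eq_one hk)
        have h1 : orderOf y ∣ Nat.card (fittingSubgroup Q) := Subgroup.orderOf_dvd_natCard _ hy
        refine Dvd.dvd.trans ?_ h1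
        rw [hj]
        refine dvd_pow_self 2 ?_
        rintro rfl
        rw [pow_zero, orderOf_eq_one_iff] at hj
        exact hy1 hj
      exact comm_of_pel_odd hK hmod hr2 hx (hF hy) hxr hys
    · exact nil_comm (p := r) hK hx (hF hy) hxr (orderOf_coprime_of_pel hs hr (Ne.symm hrs) hys)
  have hKF : K = fittingSubgroup Q :=
    le_antisymm (hcent.trans Solv.centralizer_fitting_le) hF
  have hcard : Odd (Nat.card K) := by
    rw [← Nat.not_even_iff_odd, even_iff_two_dvd, hKF]
    exact hodd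
  refine ⟨hKF, hcard, ?_⟩
  haveI : IsMulCommutative K := by
    refine ⟨⟨?_⟩⟩
    rintro ⟨a, ha⟩ ⟨b, hb⟩
    apply Subtype.ext
    exact (mem_centralizer_iff.mp (hcent ha) b (by rw [← hKF]; exact hb)).symm
  exact hmod.isCyclic_of_isMulCommutative

theorem pCore_fpf {G : Type*} [Group G] [Finite G] (hCN : IsCNGroup G) (hF : fittingHall G = ⊥)
    {p : ℕ} [hp : Fact p.Prime] {y : G} (hy1 : y ≠ 1) (hyp : (orderOf y).Coprime p) :
    pCore p G ⊓ centralizer ({y} : Set G) = ⊥ := by
  rw [eq_bot_iff]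
  rintro h ⟨hh, hhe⟩
  rw [mem_bot]
  by_contra hh1
  obtain ⟨r, m, hr, hm⟩ := exists_pow_prime hy1
  haveI : Fact r.Prime := ⟨hr⟩
  have hrd : r ∣ orderOf y := by rw [← hm]; exact orderOf_pow_dvd m
  have hrp : r ≠ p := by
    rintro rfl
    exact (Nat.Prime.coprime_iff_not_dvd hr).mp hyp.symm hrd
  have hrH : ¬ r ∣ Nat.card (pCore p G) := by
    intro h0
    obtain ⟨n, hn⟩ := IsPGroup.iff_card.mp (Solv.pCore_isPGroup (G := G) p)
    rw [hn] at h0
    exact hrp ((Nat.prime_dvd_prime_iff_eq hr hp.out).mp (hr.dvd_of_dvd_pow h0))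
  have hem1 : y ^ m ≠ 1 := by
    intro h0
    rw [h0, orderOf_one] at hm
    exact hr.one_lt.ne hm
  obtain ⟨R⟩ : Nonempty (Sylow r G) := inferInstance
  have h1 : (y ^ m) * h = h * (y ^ m) :=
    (Commute.pow_right (mem_centralizer_singleton_iff.mp hhe : Commute h y) m).symm
  have hRn := sylow_normal_of_commute hCN (pCore p G)
    (Solv.pCore_isPGroup (G := G) p).isNilpotent hrH hem1
    ⟨1, by rw [pow_one, ← hm, pow_orderOf_eq_one]⟩ hh hh1 h1 R
  have hRle := sylow_le_fittingHall R hRn
  rw [hF, le_bot_iff] at hRle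
  have hrG : r ∣ Nat.card G := hrd.trans (orderOf_dvd_natCard y)
  have h3 : (R : Subgroup G).index = Nat.card G := by rw [hRle, index_bot]
  exact R.not_dvd_index (by rw [h3]; exact hrG)

theorem card_fitting_coprime {Q : Type*} [Group Q] [Finite Q] {p : ℕ} [hp : Fact p.Prime]
    (h : pCore p Q = ⊥) : (Nat.card (fittingSubgroup Q)).Coprime p := by
  have h1 := Solv.coprime_relIndex_pCore_iSup (G := Q) p
  rw [h, relIndex_bot_left, ← Solv.fitting_eq_iSup_pCore] at h1
  exact h1

theorem threeStep_of_fittingHall_bot {G : Type u} [Group G] [Finite G] [Group.IsSolvable G]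
    [hnt : Nontrivial G] (hCN : IsCNGroup G) (hF : fittingHall G = ⊥) :
    ∃ p : ℕ, p.Prime ∧ IsThreeStepGroup p G := by
  classical
  obtain ⟨A, hAn, _, hA1, hAmin⟩ := Solv.exists_minimal_normal (⊤ : Subgroup G) inferInstance (by
    intro h
    exact (Subgroup.nontrivial_iff_ne_bot (⊤ : Subgroup G)).mp inferInstance h)
  haveI := hAn
  obtain ⟨hAc, _⟩ := Solv.minimal_normal_of_solvable A inferInstance hA1 hAmin
  obtain ⟨p, hp, hAp⟩ := Solv.minimal_normal_isPGroup A inferInstance hA1 hAmin
  haveI : Fact p.Prime := ⟨hp⟩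
  refine ⟨p, hp, ?_⟩
  set P := pCore p G with hP
  have hPp : IsPGroup p P := Solv.pCore_isPGroup p
  obtain ⟨nP, hnP⟩ := IsPGroup.iff_card.mp hPp
  have hAP : A ≤ P := Solv.le_pCore hAn hAp
  have hP1 : P ≠ ⊥ := by
    intro h
    rw [h, le_bot_iff] at hAP
    exact hA1 hAP
  -- no Sylow `p`-subgroup is normal
  have hSyl : ∀ S : Sylow p G, ¬ (S : Subgroup G).Normal := by
    intro S hS
    have h1 := sylow_le_fittingHall S hS
    rw [hF] at h1
    exact hP1 (le_bot_iff.mp ((Solv.pCore_le_sylow S).trans h1))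
  have hSylP : ∀ S : Sylow p G, ¬ (S : Subgroup G) ≤ P := by
    intro S hS
    apply hSyl S
    have : (S : Subgroup G) = P := le_antisymm hS (Solv.pCore_le_sylow S)
    rw [this]; infer_instance
  -- a Hall `p'`-subgroup
  obtain ⟨K, hKcard⟩ := Hall.hall_exists (G := G) (Nat.card G / p ^ (Nat.card G).factorization p)
    (p ^ (Nat.card G).factorization p) (Nat.div_mul_cancel (Nat.ordProj_dvd _ _)).symm
    (Nat.Coprime.pow_right _ (Nat.coprime_ordCompl hp Nat.card_pos.ne').symm)
  have hKp : (Nat.card K).Coprime p := by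
    rw [hKcard]; exact (Nat.coprime_ordCompl hp Nat.card_pos.ne').symm
  have hKi : K.index = p ^ (Nat.card G).factorization p := by
    have h1 := Subgroup.card_mul_index K
    have h2 : Nat.card K * p ^ (Nat.card G).factorization p = Nat.card G := by
      rw [hKcard]; exact Nat.div_mul_cancel (Nat.ordProj_dvd _ _)
    rw [← h2] at h1
    exact Nat.eq_of_mul_eq_mul_left Nat.card_pos h1
  have hKfpf : ∀ k ∈ K, k ≠ 1 → P ⊓ centralizer ({k} : Set G) = ⊥ := by
    intro k hk hk1
    exact pCore_fpf hCN hF hk1 (Nat.Coprime.coprime_dvd_left (Subgroup.orderOf_dvd_natCard K hk) hKp)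
  have hKmod : Frob.HasFPFModule K := by
    have hn : K ≤ normalizer (A : Set G) := by rw [normalizer_eq_top]; exact le_top
    letI : CommGroup A := { (inferInstance : Group A) with
      mul_comm := fun a b => hAc.is_comm.comm a b }
    refine ⟨A, inferInstance, inferInstance, (nontrivial_iff_ne_bot A).mpr hA1,
      Frob.conjAct K A hn, Frob.isFPF_conjAct hn ?_⟩
    intro k hk hk1
    rw [eq_bot_iff, ← hKfpf k hk hk1]
    exact inf_le_inf_right _ hAP
  have hKnil := nilpotent_of_hasFPFModule (cn_sub hCN K) hKmod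
  set π := QuotientGroup.mk' P with hπ
  have hQCN : IsCNGroup (G ⧸ P) := cn_quotient hCN P inferInstance
  have hKP : K ⊓ P = ⊥ := by
    apply Subgroup.inf_eq_bot_of_coprime
    rw [hnP]; exact Nat.Coprime.pow_right nP hKp
  have hinj : Function.Injective (π.subgroupMap K) := by
    rw [← MonoidHom.ker_eq_bot_iff, eq_bot_iff]
    rintro ⟨x, hx⟩ hxk
    have h1 : π x = 1 := congrArg Subtype.val (MonoidHom.mem_ker.mp hxk)
    have h2 : x ∈ K ⊓ P := ⟨hx, (QuotientGroup.eq_one_iff x).mp h1⟩
    rw [hKP, mem_bot] at h2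
    rw [mem_bot]
    exact Subtype.ext h2
  let e : K ≃* K.map π := MulEquiv.ofBijective (π.subgroupMap K) ⟨hinj, π.subgroupMap_surjective K⟩
  have hKbmod : Frob.HasFPFModule (K.map π) := hKmod.of_injective e.symm.toMonoidHom e.symm.injective
  have hKbnil : Group.IsNilpotent (K.map π) := nil_map hKnil π
  have hcore : pCore p (G ⧸ P) = ⊥ := Solv.pCore_quotient_pCore p
  have hQnn : ¬ Group.IsNilpotent (G ⧸ P) := by
    intro hnil
    obtain ⟨S⟩ : Nonempty (Sylow p G) := inferInstance
    apply hSylP S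
    set T := S.mapSurjective (QuotientGroup.mk'_surjective P) with hT
    have hTn : (T : Subgroup (G ⧸ P)).Normal :=
      ((Group.isNilpotent_of_finite_tfae (G := G ⧸ P)).out 0 3 rfl rfl).mp hnil p inferInstance T
    have h1 : (T : Subgroup (G ⧸ P)) ≤ ⊥ := by
      rw [← hcore]; exact Solv.le_pCore hTn T.isPGroup'
    intro s hs
    have h2 : π s ∈ (T : Subgroup (G ⧸ P)) := ⟨s, hs, rfl⟩
    exact (QuotientGroup.eq_one_iff s).mp (mem_bot.mp (h1 h2))
  have hKbi : (K.map π).index ∣ p ^ (Nat.card G).factorization p := by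
    rw [← hKi]
    exact Subgroup.index_map_dvd K (QuotientGroup.mk'_surjective P)
  have hKbc : Nat.card (K.map π) = Nat.card K := (Nat.card_congr e.toEquiv).symm
  have hFK : fittingSubgroup (G ⧸ P) ≤ K.map π := by
    have h1 := card_fitting_coprime hcore
    have h2 : (Nat.card (K.map π ⊔ fittingSubgroup (G ⧸ P) : Subgroup (G ⧸ P))).Coprime p := by
      refine Nat.Coprime.coprime_dvd_left (Solv.card_sup_dvd_of_normal _ _) ?_
      exact Nat.Coprime.mul_left (by rw [hKbc]; exact hKp) h1
    have h3 : (K.map π).relIndex (K.map π ⊔ fittingSubgroup (G ⧸ P)) = 1 := by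
      refine Nat.eq_one_of_dvd_coprimes (Nat.Coprime.pow_right ((Nat.card G).factorization p) h2) ?_ ?_
      · exact relIndex_dvd_card _ _
      · exact (relIndex_dvd_index_of_le le_sup_left).trans hKbi
    exact le_sup_right.trans (relIndex_eq_one.mp h3)
  obtain ⟨hKbF, hodd, hcyc⟩ := hall_step hQCN hQnn (K.map π) hKbnil hKbmod hFK
  have hcomap : (K.map π).comap π = P ⊔ K := by rw [hπ, QuotientGroup.comap_map_mk']
  have hKbn : (K.map π).Normal := by rw [hKbF]; infer_instance
  have hPi : ∀ S : Sylow p G, ¬ P.index.Coprime p := by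
    intro S h
    apply hSylP S
    rw [← relIndex_eq_one]
    obtain ⟨n, hn⟩ := IsPGroup.iff_card.mp S.isPGroup'
    refine Nat.eq_one_of_dvd_coprimes (Nat.Coprime.pow_right n h) (relIndex_dvd_index_of_normal _ _) ?_
    rw [← hn]
    exact relIndex_dvd_card _ _
  obtain ⟨S₀⟩ : Nonempty (Sylow p G) := inferInstance
  refine ⟨hP1, K, ?_, ?_, ?_, hKp, ?_, ?_, ?_, hKfpf, ?_⟩
  · rintro rfl
    apply hPi S₀
    exfalso
    apply hQnn
    have h1 : IsPGroup p G := by
      rw [IsPGroup.iff_card]
      exact ⟨_, by rw [← hKi, index_bot]⟩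
    exact (h1.to_quotient P).isNilpotent
  · haveI := hcyc
    exact isCyclic_of_surjective e.symm e.symm.surjective
  · rw [← hKbc]; exact hodd
  · rw [← hcomap]; infer_instance
  · intro h
    apply hPi S₀
    have h1 : P.relIndex (P ⊔ K) = P.relIndex K := relIndex_sup_left _ _
    rw [h, relIndex_top_right] at h1
    rw [h1]
    exact Nat.Coprime.coprime_dvd_left (relIndex_dvd_card _ _) hKp
  · have h1 : (P ⊔ K).index ∣ p ^ (Nat.card G).factorization p := by
      rw [← hKi]; exact index_dvd_of_le le_sup_right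
    obtain ⟨n, _, hn⟩ := (Nat.dvd_prime_pow hp).mp h1
    exact ⟨n, hn⟩
  · intro x hx a ha ha1 hxa
    apply hx
    rw [← hcomap]
    change π x ∈ K.map π
    have hcomm : π x * π a = π a * π x := by
      have h1 : π (x * a * x⁻¹ * a⁻¹) = 1 := (QuotientGroup.eq_one_iff _).mpr hxa
      rw [map_mul, map_mul, map_mul, map_inv, map_inv, mul_inv_eq_one, mul_inv_eq_iff_eq_mul] at h1
      exact h1
    have hb1 : π a ≠ 1 := by
      intro h1
      have h2 : a ∈ K ⊓ P := ⟨ha, (QuotientGroup.eq_one_iff a).mp h1⟩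
      rw [hKP, mem_bot] at h2
      exact ha1 h2
    have hnil := hQCN (π a) hb1
    have hKN : K.map π ≤ centralizer ({π a} : Set (G ⧸ P)) := by
      intro k hk
      rw [mem_centralizer_singleton_iff]
      haveI := hcyc
      have h3 := (inferInstance : IsMulCommutative (K.map π)).is_comm.comm ⟨k, hk⟩ ⟨π a, ⟨a, ha, rfl⟩⟩
      exact congrArg Subtype.val h3
    have hxN : π x ∈ centralizer ({π a} : Set (G ⧸ P)) := mem_centralizer_singleton_iff.mpr hcomm
    obtain ⟨i, j, hij, ⟨k, hk⟩, hj⟩ := Transfer.exists_pow_decomp p (π x) (orderOf_pos _).ne'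
    have hpart1 : π x ^ i = 1 := by
      have h4 : π x ^ i ∈ centralizer ((K.map π : Subgroup (G ⧸ P)) : Set (G ⧸ P)) := by
        rw [mem_centralizer_iff]
        intro w hw
        refine (nil_comm (p := p) hnil (Subgroup.pow_mem _ hxN i) (hKN hw)
          ⟨k, by rw [← hk]; exact pow_orderOf_eq_one _⟩ ?_).symm
        refine Nat.Coprime.coprime_dvd_left (Subgroup.orderOf_dvd_natCard _ hw) ?_
        rw [hKbc]; exact hKp
      have h5 : π x ^ i ∈ K.map π := by
        rw [hKbF] at h4 ⊢
        exact Solv.centralizer_fitting_le h4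
      rw [← orderOf_eq_one_iff]
      have h6 : orderOf (π x ^ i) ∣ Nat.card K := by
        rw [← hKbc]; exact Subgroup.orderOf_dvd_natCard _ h5
      refine Nat.eq_one_of_dvd_coprimes (Nat.Coprime.pow_right k hKp) h6 (by rw [hk])
    rw [hij, hpart1, one_mul]
    apply mem_of_mem_normalizer_of_coprime
    · rw [normalizer_eq_top]; trivial
    · obtain ⟨n, _, hn⟩ := (Nat.dvd_prime_pow hp).mp hKbi
      rw [hn]
      exact Nat.Coprime.pow_right n hj

/-- Classification of solvable CN-groups. -/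
theorem solvable_cn {G : Type u} [Group G] [Finite G] [Group.IsSolvable G] (hCN : IsCNGroup G) :
    Group.IsNilpotent G ∨ (fittingHall G ≠ ⊥ ∧ fittingHall G ≠ ⊤ ∧
      (∃ E : Subgroup G, IsComplement' (fittingHall G) E ∧ IsFrobeniusComplement E ∧
        (∀ e ∈ E, e ≠ 1 → fittingHall G ⊓ centralizer ({e} : Set G) = ⊥) ∧ Group.IsNilpotent E) ∧
      Group.IsNilpotent (G ⧸ fittingHall G)) ∨ ∃ p : ℕ, p.Prime ∧ IsThreeStepGroup p G := by
  by_cases hnn : Group.IsNilpotent G
  · exact Or.inl hnn
  · right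
    by_cases hF : fittingHall G = ⊥
    · right
      haveI : Nontrivial G := by
        by_contra h
        rw [not_nontrivial_iff_subsingleton] at h
        exact hnn inferInstance
      exact threeStep_of_fittingHall_bot hCN hF
    · left
      obtain ⟨h1, h2, h3⟩ := cn_frobenius hCN hnn hF
      exact ⟨hF, h1, h2, h3⟩

end Cfsg.Agent.H25.CN
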