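import Cfsg.Agent.H25.CNEmb

/-!
Three-step groups inside minimal simple CN-groups of odd order.
-/

set_option autoImplicit false
set_option linter.style.haveILetI false
set_option linter.unusedSimpArgs false
set_option linter.unusedVariables false
set_option linter.unusedSectionVars false

open Cfsg Subgroup
open scoped Pointwise commutatorElement

namespace Cfsg.Agent.H25.CN

/-- In a Frobenius group `K A` with kernel `K`, elements outside `K` are conjugate to elements of `A`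
by elements of `K`. -/
theorem exists_conj_of_mem_sup {G : Type*} [Group G] [Finite G] {K A : Subgroup G} [hK : K.Normal]
    (hfpf : ∀ a ∈ A, a ≠ 1 → K ⊓ centralizer ({a} : Set G) = ⊥) {y : G} (hy : y ∈ K ⊔ A)
    (hyK : y ∉ K) : ∃ u ∈ K, ∃ a ∈ A, a ≠ 1 ∧ y = u * a * u⁻¹ := by
  obtain ⟨k, hk, a, ha, rfl⟩ := (Subgroup.mem_sup_of_normal_left).mp hy
  have ha1 : a ≠ 1 := by
    rintro rfl
    exact hyK (by simpa using hk)
  set φ : K → K := fun u => ⟨(u : G) * (a * (u : G)⁻¹ * a⁻¹), K.mul_mem u.2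
    (hK.conj_mem _ (K.inv_mem u.2) a)⟩ with hφ
  have hinj : Function.Injective φ := by
    intro u v huv
    have h1 : (u : G) * (a * (u : G)⁻¹ * a⁻¹) = (v : G) * (a * (v : G)⁻¹ * a⁻¹) :=
      congrArg Subtype.val huv
    have h2 : (v : G)⁻¹ * u ∈ K ⊓ centralizer ({a} : Set G) := by
      refine mem_inf.mpr ⟨K.mul_mem (K.inv_mem v.2) u.2, ?_⟩
      rw [mem_centralizer_singleton_iff]
      calc (v : G)⁻¹ * u * a = (v : G)⁻¹ * ((u : G) * (a * (u : G)⁻¹ * a⁻¹)) * a * u := by group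
        _ = (v : G)⁻¹ * ((v : G) * (a * (v : G)⁻¹ * a⁻¹)) * a * u := by rw [h1]
        _ = a * ((v : G)⁻¹ * u) := by group
    rw [hfpf a ha ha1, mem_bot, inv_mul_eq_one] at h2
    exact Subtype.ext h2.symm
  obtain ⟨u, hu⟩ := (Finite.injective_iff_surjective.mp hinj) ⟨k, hk⟩
  refine ⟨u, u.2, a, ha, ha1, ?_⟩
  have h1 : (u : G) * (a * (u : G)⁻¹ * a⁻¹) = k := congrArg Subtype.val hu
  rw [← h1]; group

theorem fpf_of_mem_sup {G : Type*} [Group G] [Finite G] {K A : Subgroup G} [hK : K.Normal]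
    (hfpf : ∀ a ∈ A, a ≠ 1 → K ⊓ centralizer ({a} : Set G) = ⊥) {y : G} (hy : y ∈ K ⊔ A)
    (hyK : y ∉ K) {x : G} (hx : x ∈ K) (hxy : x * y = y * x) : x = 1 := by
  obtain ⟨u, hu, a, ha, ha1, rfl⟩ := exists_conj_of_mem_sup hfpf hy hyK
  have h1 : u⁻¹ * x * u ∈ K ⊓ centralizer ({a} : Set G) := by
    refine mem_inf.mpr ⟨K.mul_mem (K.mul_mem (K.inv_mem hu) hx) hu, ?_⟩
    rw [mem_centralizer_singleton_iff]
    calc u⁻¹ * x * u * a = u⁻¹ * (x * (u * a * u⁻¹)) * u := by group
      _ = u⁻¹ * ((u * a * u⁻¹) * x) * u := by rw [hxy]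
      _ = a * (u⁻¹ * x * u) := by group
  rw [hfpf a ha ha1, mem_bot] at h1
  have h2 : x = u * (u⁻¹ * x * u) * u⁻¹ := by group
  rw [h2, h1]; group

theorem nil_of_inj {X Y : Type*} [Group X] [Group Y] (hX : Group.IsNilpotent X) (f : Y →* X)
    (hf : Function.Injective f) : Group.IsNilpotent Y := by
  haveI := hX
  exact Group.nilpotent_of_mulEquiv (MonoidHom.ofInjective hf).symm

/-- Nilpotent or Frobenius-like: a normal nilpotent subgroup `F` with nilpotent quotient containing the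
centralizers of its nonidentity elements. -/
def NF (X : Type*) [Group X] : Prop :=
  ∃ (F : Subgroup X) (_ : F.Normal), Group.IsNilpotent F ∧ Group.IsNilpotent (X ⧸ F) ∧
    ∀ f ∈ F, f ≠ 1 → centralizer ({f} : Set X) ≤ F

theorem NF.of_injective {X Y : Type*} [Group X] [Group Y] (h : NF X) (φ : Y →* X)
    (hφ : Function.Injective φ) : NF Y := by
  obtain ⟨F, hF, h1, h2, h3⟩ := h
  refine ⟨F.comap φ, inferInstance, ?_, ?_, ?_⟩
  · have h4 : Function.Injective ((φ.subgroupComap F)) := by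
      intro a b hab
      have := congrArg Subtype.val hab
      exact Subtype.ext (hφ this)
    exact nil_of_inj h1 _ h4
  · have h4 : Function.Injective (QuotientGroup.map (F.comap φ) F φ le_rfl) := by
      rw [← MonoidHom.ker_eq_bot_iff, eq_bot_iff]
      intro x hx
      induction x using QuotientGroup.induction_on with
      | H y =>
        rw [MonoidHom.mem_ker] at hx
        change ((φ y : X) : X ⧸ F) = 1 at hx
        rw [QuotientGroup.eq_one_iff] at hx
        rw [mem_bot, QuotientGroup.eq_one_iff]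
        exact hx
    exact nil_of_inj h2 _ h4
  · intro f hf hf1 y hy
    have h4 : φ f ≠ 1 := fun h => hf1 (hφ (by rw [h, map_one]))
    refine h3 (φ f) hf h4 ?_
    rw [mem_centralizer_singleton_iff] at hy ⊢
    rw [← map_mul, hy, map_mul]

/-- an element outside `L` with a power of `p`-power index in `L`, made `r`-regular modulo `K`. -/
theorem exists_not_mem_regular {X : Type*} [Group X] [Finite X] {K L : Subgroup X} [K.Normal]
    {p n r : ℕ} [hr : Fact r.Prime] (hrp : r.Coprime p) (hL : ∀ x : X, x ^ p ^ n ∈ L) (hLt : L ≠ ⊤) :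
    ∃ y : X, y ∉ L ∧ (orderOf ((y : X) : X ⧸ K)).Coprime r := by
  obtain ⟨x, hx⟩ : ∃ x : X, x ∉ L := by
    by_contra hcon
    push Not at hcon
    exact hLt (eq_top_iff.mpr fun x _ => hcon x)
  set o := orderOf ((x : X) : X ⧸ K) with ho
  have ho0 : o ≠ 0 := (orderOf_pos _).ne'
  obtain ⟨k, m, hm, hkm⟩ := Nat.exists_eq_pow_mul_and_not_dvd ho0 r hr.out.ne_one
  refine ⟨x ^ r ^ k, ?_, ?_⟩
  · intro h
    apply hx
    have hcop : Nat.Coprime (r ^ k) (p ^ n) := Nat.Coprime.pow k n hrp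
    have h1 : (1 : ℤ) = (r ^ k : ℕ) * Nat.gcdA (r ^ k) (p ^ n) + (p ^ n : ℕ) * Nat.gcdB (r ^ k) (p ^ n) := by
      rw [← Nat.gcd_eq_gcd_ab, hcop]; simp
    have h2 : x = (x ^ r ^ k) ^ Nat.gcdA (r ^ k) (p ^ n) * (x ^ p ^ n) ^ Nat.gcdB (r ^ k) (p ^ n) := by
      rw [← zpow_natCast, ← zpow_natCast, ← zpow_mul, ← zpow_mul, ← zpow_add, ← h1, zpow_one]
    rw [h2]
    exact L.mul_mem (L.zpow_mem h _) (L.zpow_mem (hL x) _)
  · have h1 : orderOf (((x ^ r ^ k : X)) : X ⧸ K) = m := by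
      rw [QuotientGroup.mk_pow]
      rw [orderOf_pow' _ (pow_ne_zero _ hr.out.ne_zero), ← ho, hkm]
      rw [Nat.gcd_eq_right (Dvd.intro _ rfl)]
      exact Nat.mul_div_cancel_left m (pow_pos hr.out.pos _)
    rw [h1]
    exact ((Nat.Prime.coprime_iff_not_dvd hr.out).mpr hm).symm

theorem not_NF_of_threeStep {X : Type*} [Group X] [Finite X] {p : ℕ} (h : IsThreeStepGroup p X) :
    ¬ NF X := by
  rintro ⟨F, hFn, hFnil, hQnil, hFc⟩
  obtain ⟨hK1, A, hA1, hAc, hAodd, hAp, hKAn, hKAt, ⟨n, hn⟩, hfpf, hfr⟩ := h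
  set K := pCore p X with hK
  have hKp : ∀ x ∈ K, ∃ k, x ^ p ^ k = 1 := by
    intro x hx
    exact pel_of_mem (Solv.pCore_isPGroup p) hx
  -- an element of prime order in `A`
  obtain ⟨r, hr, hrA⟩ := Nat.exists_prime_and_dvd (n := Nat.card A) (by
    rw [Ne, Subgroup.card_eq_one]; exact hA1)
  haveI : Fact r.Prime := ⟨hr⟩
  have hrp : r.Coprime p := Nat.Coprime.coprime_dvd_left hrA hAp
  obtain ⟨a, haA, ha⟩ : ∃ a ∈ A, orderOf a = r := by
    obtain ⟨x, hx⟩ := exists_prime_orderOf_dvd_card' r hrA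
    exact ⟨x, x.2, by rw [Subgroup.orderOf_coe]; exact hx⟩
  have ha1 : a ≠ 1 := by
    rintro rfl
    rw [orderOf_one] at ha
    exact hr.one_lt.ne ha
  have hpow : ∀ x : X, x ^ p ^ n ∈ K ⊔ A := by
    intro x
    rw [← hn]
    exact Subgroup.pow_index_mem _ x
  by_cases hFK : F ≤ K
  · -- `X / K` is nilpotent
    have hXK : Group.IsNilpotent (X ⧸ K) := by
      haveI := hQnil
      have h1 : Function.Surjective (QuotientGroup.map F K (MonoidHom.id X) hFK) := by
        intro x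
        induction x using QuotientGroup.induction_on with
        | H y => exact ⟨(y : X ⧸ F), rfl⟩
      exact Group.nilpotent_of_surjective _ h1
    obtain ⟨y, hy, hyo⟩ := exists_not_mem_regular (K := K) (n := n) (r := r) hrp hpow hKAt
    have h2 := Transfer.commute_of_isNilpotent (p := r) hXK (x := ((a : X) : X ⧸ K))
      (y := ((y : X) : X ⧸ K)) (k := 1) (by
        rw [pow_one, ← QuotientGroup.mk_pow, ← ha, pow_orderOf_eq_one]; rfl) hyo
    apply hfr y hy a haA ha1
    rw [← QuotientGroup.eq_one_iff]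
    have h3 : (((y * a * y⁻¹ * a⁻¹ : X)) : X ⧸ K) =
        (y : X ⧸ K) * (a : X ⧸ K) * (y : X ⧸ K)⁻¹ * (a : X ⧸ K)⁻¹ := rfl
    rw [h3, ← h2.eq]
    group
  · obtain ⟨f, hf, hfK⟩ : ∃ f ∈ F, f ∉ K := by
      by_contra hcon
      push Not at hcon
      exact hFK hcon
    have hf1 : f ≠ 1 := by rintro rfl; exact hfK K.one_mem
    have hFK1 : F ⊓ K ≠ ⊥ := by
      intro h1
      have h2 : K ≤ centralizer ({f} : Set X) := by
        intro k hk
        rw [mem_centralizer_singleton_iff]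
        have h3 : k * f * k⁻¹ * f⁻¹ ∈ F ⊓ K := by
          refine mem_inf.mpr ⟨F.mul_mem (hFn.conj_mem f hf k) (F.inv_mem hf), ?_⟩
          have h4 : k * f * k⁻¹ * f⁻¹ = k * (f * k⁻¹ * f⁻¹) := by group
          rw [h4]
          exact K.mul_mem hk ((inferInstance : K.Normal).conj_mem _ (K.inv_mem hk) f)
        rw [h1, mem_bot, mul_inv_eq_one, mul_inv_eq_iff_eq_mul] at h3
        exact h3
      have h3 : K ≤ F := h2.trans (hFc f hf hf1)
      rw [inf_eq_right.mpr h3] at h1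
      exact hK1 h1
    -- an element of prime order in `F ⊓ K`
    obtain ⟨⟨x₀, hx₀⟩, hx₀1⟩ := (Subgroup.ne_bot_iff_exists_ne_one).mp hFK1
    obtain ⟨s, m, hs, hsm⟩ := exists_pow_prime (x := (x₀ : X)) (fun h => hx₀1 (Subtype.ext h))
    haveI : Fact s.Prime := ⟨hs⟩
    have hx₁F : (x₀ : X) ^ m ∈ F := F.pow_mem hx₀.1 m
    have hx₁K : (x₀ : X) ^ m ∈ K := K.pow_mem hx₀.2 m
    obtain ⟨k, hk⟩ := hKp _ hx₁K
    have hsp : s ∣ p := by
      rw [← hsm]
      have := orderOf_dvd_of_pow_eq_one hk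
      rw [hsm] at this ⊢
      exact hs.dvd_of_dvd_pow this
    obtain ⟨g, hgF, hgKA, hgK⟩ : ∃ g ∈ F, g ∈ K ⊔ A ∧ g ∉ K := by
      by_cases hfKA : f ∈ K ⊔ A
      · exact ⟨f, hf, hfKA, hfK⟩
      · refine ⟨f * a * f⁻¹ * a⁻¹, ?_, ?_, hfr f hfKA a haA ha1⟩
        · have h4 : f * a * f⁻¹ * a⁻¹ = f * (a * f⁻¹ * a⁻¹) := by group
          rw [h4]
          exact F.mul_mem hf (hFn.conj_mem _ (F.inv_mem hf) a)
        · have haKA : a ∈ K ⊔ A := (le_sup_right : A ≤ K ⊔ A) haA
          exact (K ⊔ A).mul_mem (hKAn.conj_mem a haKA f) ((K ⊔ A).inv_mem haKA)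
    obtain ⟨u, hu, b, hb, hb1, hgub⟩ := exists_conj_of_mem_sup hfpf hgKA hgK
    have hbF : b ∈ F := by
      have h4 : b = u⁻¹ * g * u⁻¹⁻¹ := by rw [hgub]; group
      rw [h4]
      exact hFn.conj_mem g hgF u⁻¹
    have hbs : (orderOf b).Coprime s := by
      refine Nat.Coprime.coprime_dvd_left ?_ (Nat.Coprime.coprime_dvd_right hsp hAp)
      exact Subgroup.orderOf_dvd_natCard A hb
    have h5 := nil_comm (p := s) hFnil hx₁F hbF ⟨1, by rw [pow_one, ← hsm, pow_orderOf_eq_one]⟩ hbs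
    have h6 : (x₀ : X) ^ m ∈ K ⊓ centralizer ({b} : Set X) :=
      mem_inf.mpr ⟨hx₁K, by rw [mem_centralizer_singleton_iff]; exact h5⟩
    rw [hfpf b hb hb1, mem_bot] at h6
    rw [h6, orderOf_one] at hsm
    exact hs.one_lt.ne hsm

theorem NF_or_threeStep {X : Type*} [Group X] [Finite X] [Group.IsSolvable X] (hCN : IsCNGroup X) :
    (NF X ∧ (Group.IsNilpotent X ∨ (fittingHall X ≠ ⊥ ∧ fittingHall X ≠ ⊤ ∧
      ∃ E : Subgroup X, IsComplement' (fittingHall X) E ∧ IsFrobeniusComplement E ∧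
        (∀ e ∈ E, e ≠ 1 → fittingHall X ⊓ centralizer ({e} : Set X) = ⊥) ∧ Group.IsNilpotent E))) ∨
      ∃ p : ℕ, p.Prime ∧ IsThreeStepGroup p X := by
  rcases solvable_cn hCN with h | ⟨h1, h2, ⟨E, hE, hEc, hEf, hEn⟩, h3⟩ | h
  · refine Or.inl ⟨⟨⊥, inferInstance, inferInstance, ?_, ?_⟩, Or.inl h⟩
    · haveI := h
      exact Group.nilpotent_of_surjective (QuotientGroup.mk' (⊥ : Subgroup X))
        (QuotientGroup.mk'_surjective _)
    · intro f hf hf1
      exact absurd (mem_bot.mp hf) hf1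
  · refine Or.inl ⟨⟨fittingHall X, inferInstance, fittingHall_nilpotent X, h3, ?_⟩,
      Or.inr ⟨h1, h2, E, hE, hEc, hEf, hEn⟩⟩
    intro f hf hf1 y hy
    by_contra hyF
    have h4 : y ∈ fittingHall X ⊔ E := by
      rw [hE.sup_eq_top]; trivial
    apply hf1
    refine fpf_of_mem_sup hEf h4 hyF hf ?_
    rw [mem_centralizer_singleton_iff] at hy
    exact hy.symm
  · exact Or.inr h

section

variable {G : Type*} [Group G] [Finite G]

theorem simple_normalizer_ne_top (hG : IsMinSimpleOddOrder G) {Q : Subgroup G} (hQ : Q ≠ ⊥)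
    (hQ2 : Group.IsSolvable Q) : normalizer (Q : Set G) ≠ ⊤ := by
  intro h
  have h1 : Q.Normal := normalizer_eq_top_iff.mp h
  haveI := hG.2.1
  rcases h1.eq_bot_or_eq_top with h2 | h2
  · exact hQ h2
  · have h3 : Group.IsSolvable (⊤ : Subgroup G) := h2 ▸ hQ2
    haveI : Group.IsSolvable G := by
      haveI := h3
      exact Group.isSolvable_of_surjective (f := (topEquiv (G := G)).toMonoidHom) topEquiv.surjective
    apply hG.2.2.1
    have h4 := IsSimpleGroup.comm_iff_isSolvable (G := G)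
    exact ⟨⟨h4.mpr inferInstance⟩⟩

/-- If `C_G(x)` is a `p`-group for all nonidentity `p`-elements then the `p`-locals are good. -/
theorem goodLocals_of_centralizer {p : ℕ} [hpf : Fact p.Prime] (hG : IsMinSimpleOddOrder G)
    (h : ∀ x : G, x ≠ 1 → (∃ k, x ^ p ^ k = 1) → IsPGroup p (centralizer ({x} : Set G))) :
    GoodLocals p G := by
  intro Q hQ hQ1
  have h1 : normalizer (Q : Set G) ≠ ⊤ :=
    simple_normalizer_ne_top hG hQ1 (by haveI := hQ.isNilpotent; infer_instance)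
  refine ⟨hG.2.2.2 _ h1, ?_⟩
  set N := normalizer (Q : Set G) with hN
  rw [eq_bot_iff]
  intro y hy
  haveI : (Q.subgroupOf N).Normal := by rw [hN]; infer_instance
  obtain ⟨⟨x, hx⟩, hx1⟩ := (Subgroup.ne_bot_iff_exists_ne_one).mp hQ1
  have hx1' : x ≠ 1 := fun h => hx1 (Subtype.ext h)
  have hxN : x ∈ N := le_normalizer hx
  have hcard := Solv.pPrimeCore_card_coprime (G := N) p
  have h2 : (⟨x, hxN⟩ : N) * y * (⟨x, hxN⟩ : N)⁻¹ * y⁻¹ ∈ Q.subgroupOf N ⊓ pPrimeCore p N := by
    refine mem_inf.mpr ⟨?_, ?_⟩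
    · have h4 : (⟨x, hxN⟩ : N) * y * (⟨x, hxN⟩ : N)⁻¹ * y⁻¹ =
        (⟨x, hxN⟩ : N) * (y * (⟨x, hxN⟩ : N)⁻¹ * y⁻¹) := by group
      rw [h4]
      exact mul_mem hx ((inferInstance : (Q.subgroupOf N).Normal).conj_mem _
        (inv_mem (show (⟨x, hxN⟩ : N) ∈ Q.subgroupOf N from hx)) y)
    · exact mul_mem ((inferInstance : (pPrimeCore p N).Normal).conj_mem y hy _) (inv_mem hy)
  have h3 : Q.subgroupOf N ⊓ pPrimeCore p N = ⊥ := by
    refine inf_eq_bot_of_card_coprime _ _ ?_
    have h4 : IsPGroup p (Q.subgroupOf N) := hQ.comap_of_injective N.subtype N.subtype_injective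
    obtain ⟨n, hn⟩ := IsPGroup.iff_card.mp h4
    rw [hn]
    exact (hcard.pow_right n).symm
  rw [h3, mem_bot, mul_inv_eq_one, mul_inv_eq_iff_eq_mul] at h2
  have h4 : (y : G) ∈ centralizer ({x} : Set G) := by
    rw [mem_centralizer_singleton_iff]
    exact (congrArg Subtype.val h2).symm
  obtain ⟨k, hk⟩ := h x hx1' (pel_of_mem hQ hx) ⟨y, h4⟩
  have hk' : y ^ p ^ k = 1 := Subtype.ext (by simpa using congrArg Subtype.val hk)
  have h5 : orderOf y ∣ Nat.card (pPrimeCore p N) := Subgroup.orderOf_dvd_natCard _ hy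
  have h6 : (orderOf y).Coprime (p ^ k) := (Nat.Coprime.coprime_dvd_left h5 hcard).pow_right k
  have h7 : orderOf y = 1 :=
    Nat.eq_one_of_dvd_coprimes h6 dvd_rfl (orderOf_dvd_of_pow_eq_one hk')
  rw [mem_bot]
  exact orderOf_eq_one_iff.mp h7

theorem isPGroup_of_regular {p : ℕ} [hpf : Fact p.Prime] {C : Subgroup G}
    (h : ∀ y ∈ C, (orderOf y).Coprime p → y = 1) : IsPGroup p C := by
  rintro ⟨y, hy⟩
  obtain ⟨k, m, hm, hkm⟩ := Nat.exists_eq_pow_mul_and_not_dvd (orderOf_pos y).ne' p hpf.out.ne_one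
  refine ⟨k, Subtype.ext ?_⟩
  have h1 : orderOf (y ^ p ^ k) = m := by
    rw [orderOf_pow' _ (pow_ne_zero _ hpf.out.ne_zero), hkm, Nat.gcd_eq_right (Dvd.intro _ rfl)]
    exact Nat.mul_div_cancel_left m (pow_pos hpf.out.pos _)
  have h2 := h (y ^ p ^ k) (C.pow_mem hy _) (by
    rw [h1]; exact ((Nat.Prime.coprime_iff_not_dvd hpf.out).mpr hm).symm)
  simpa using h2

theorem normalizer_eq_of_isCoatom (hG : IsMinSimpleOddOrder G) {M Q : Subgroup G} (hM : IsCoatom M)
    (hQ : Q ≠ ⊥) (hQM : Q ≤ M) (hMQ : M ≤ normalizer (Q : Set G)) : normalizer (Q : Set G) = M := by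
  have h1 : Group.IsSolvable M := hG.2.2.2 M hM.1
  have h2 : Group.IsSolvable Q := by
    haveI := h1
    exact Group.isSolvable_of_isSolvable_injective (Subgroup.inclusion_injective hQM)
  rcases hM.le_iff.mp hMQ with h | h
  · exact absurd h (simple_normalizer_ne_top hG hQ h2)
  · exact h

/-- No three-step subgroups in minimal simple CN-groups of odd order. -/
theorem no_threeStep (hG : IsMinSimpleOddOrder G) (hCN : IsCNGroup G) (H : Subgroup G) (p : ℕ) :
    ¬ IsThreeStepGroup p H := by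
  intro hH
  have hNFH := not_NF_of_threeStep hH
  haveI := hG.2.1
  -- `H` is proper
  have hHt : H ≠ ⊤ := by
    rintro rfl
    haveI : IsSimpleGroup (⊤ : Subgroup G) := topEquiv.isSimpleGroup
    obtain ⟨hK1, A, hA1, hAc, hAodd, hAp, hKAn, hKAt, -, -, -⟩ := hH
    rcases (inferInstance : (pCore p (⊤ : Subgroup G)).Normal).eq_bot_or_eq_top with h | h
    · exact hK1 h
    · apply hKAt
      rw [h, top_sup_eq]
  obtain ⟨M, hM, hHM⟩ := (eq_top_or_exists_le_coatom H).resolve_left hHt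
  haveI hMs : Group.IsSolvable M := hG.2.2.2 M hM.1
  have hCNM : IsCNGroup M := cn_of_injective M.subtype M.subtype_injective hCN
  have hNFM : ¬ NF M := fun h =>
    hNFH (h.of_injective (Subgroup.inclusion hHM) (Subgroup.inclusion_injective hHM))
  obtain ⟨q, hq, hMq⟩ : ∃ q : ℕ, q.Prime ∧ IsThreeStepGroup q M := by
    rcases NF_or_threeStep hCNM with h | h
    · exact absurd h.1 hNFM
    · exact h
  haveI : Fact q.Prime := ⟨hq⟩
  obtain ⟨hK1, A, hA1, hAc, hAodd, hAp, hKAn, hKAt, ⟨n, hn⟩, hfpf, hfr⟩ := hMq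
  set K := pCore q M with hK
  have hKq : IsPGroup q K := Solv.pCore_isPGroup q
  have hoddM : Odd (Nat.card M) := hG.1.of_dvd_nat (card_subgroup_dvd_card M)
  have hq2 : q ≠ 2 := by
    rintro rfl
    obtain ⟨x, hx1⟩ := (Subgroup.ne_bot_iff_exists_ne_one).mp hK1
    have h1 : 2 ∣ Nat.card K := by
      rcases hKq.card_eq_or_dvd with h | h
      · exact absurd (Subgroup.card_eq_one.mp h) hK1
      · exact h
    have h2 := h1.trans (card_subgroup_dvd_card K)
    rw [← Nat.not_even_iff_odd, even_iff_two_dvd] at hoddM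
    exact hoddM h2
  -- `q'`-elements of `M` commuting with `K` are trivial
  have hreg : ∀ y : M, (orderOf y).Coprime q → (∀ x ∈ K, x * y = y * x) → y = 1 := by
    intro y hy hc
    have h1 : y ∈ K ⊔ A := by
      have h2 : y ^ q ^ n ∈ K ⊔ A := by rw [← hn]; exact Subgroup.pow_index_mem _ y
      have hcop : Nat.Coprime (orderOf y) (q ^ n) := hy.pow_right n
      obtain ⟨m, hm⟩ := exists_pow_eq_self_of_coprime hcop.symm
      rw [← hm]
      exact (K ⊔ A).pow_mem h2 m
    have h2 : y ∈ K := by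
      by_contra hyK
      obtain ⟨x, hx1⟩ := (Subgroup.ne_bot_iff_exists_ne_one).mp hK1
      exact hx1 (Subtype.ext (fpf_of_mem_sup hfpf h1 hyK x.2 (hc x x.2)))
    obtain ⟨k, hk⟩ := pel_of_mem hKq h2
    have h7 : orderOf y = 1 :=
      Nat.eq_one_of_dvd_coprimes (hy.pow_right k) dvd_rfl (orderOf_dvd_of_pow_eq_one hk)
    exact orderOf_eq_one_iff.mp h7
  have hO : pPrimeCore q M = ⊥ := by
    rw [eq_bot_iff]
    intro y hy
    rw [mem_bot]
    have hcard := Solv.pPrimeCore_card_coprime (G := M) q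
    refine hreg y (Nat.Coprime.coprime_dvd_left (Subgroup.orderOf_dvd_natCard _ hy) hcard) ?_
    intro x hx
    have h2 : x * y * x⁻¹ * y⁻¹ ∈ K ⊓ pPrimeCore q M := by
      refine mem_inf.mpr ⟨?_, ?_⟩
      · have h4 : x * y * x⁻¹ * y⁻¹ = x * (y * x⁻¹ * y⁻¹) := by group
        rw [h4]
        exact mul_mem hx ((inferInstance : K.Normal).conj_mem _ (inv_mem hx) y)
      · exact mul_mem ((inferInstance : (pPrimeCore q M).Normal).conj_mem y hy _) (inv_mem hy)
    have h3 : K ⊓ pPrimeCore q M = ⊥ := by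
      refine inf_eq_bot_of_card_coprime _ _ ?_
      obtain ⟨n, hn⟩ := IsPGroup.iff_card.mp hKq
      rw [hn]
      exact (hcard.pow_right n).symm
    rw [h3, mem_bot, mul_inv_eq_one, mul_inv_eq_iff_eq_mul] at h2
    exact h2
  -- the Sylow subgroup
  obtain ⟨S⟩ : Nonempty (Sylow q M) := inferInstance
  set T := (S : Subgroup M).map M.subtype with hT
  have hTq : IsPGroup q T := S.isPGroup'.map _
  have hTM : T ≤ M := Subgroup.map_subtype_le _
  have hKS : K ≤ (S : Subgroup M) := Solv.pCore_le_sylow S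
  have hT1 : T ≠ ⊥ := by
    intro h
    obtain ⟨x, hx1⟩ := (Subgroup.ne_bot_iff_exists_ne_one).mp hK1
    have h1 : ((x : M) : G) ∈ T := ⟨x, hKS x.2, rfl⟩
    rw [h, mem_bot] at h1
    exact hx1 (Subtype.ext (Subtype.ext h1))
  have hMW : M ≤ normalizer (WZ q T : Set G) := normalizer_le_of_sylow hq2 hG.1 hO S
  have hW1 : WZ q T ≠ ⊥ := WZ_ne_bot hTq hT1
  have hMeq : normalizer (WZ q T : Set G) = M :=
    normalizer_eq_of_isCoatom hG hM hW1 ((WZ_le T).trans hTM) hMW
  obtain ⟨P, hP⟩ := hTq.exists_le_sylow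
  have hTP : T = P := by
    by_contra hne
    have h5 := Transfer.lt_normalizer_inf_of_isPGroup P.isPGroup' (lt_of_le_of_ne hP hne)
    set T' := normalizer (T : Set G) ⊓ (P : Subgroup G) with hT'
    have h6 : T' ≤ M := by
      rw [← hMeq]; exact inf_le_left.trans (normalizer_le_normalizer_WZ T)
    have h7 : IsPGroup q (T'.subgroupOf M) :=
      (P.isPGroup'.to_le inf_le_right).comap_of_injective M.subtype M.subtype_injective
    have h8 : (S : Subgroup M) ≤ T'.subgroupOf M := by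
      intro x hx
      exact h5.le ⟨x, hx, rfl⟩
    have h9 := S.is_maximal' h7 h8
    have h10 : T' ≤ T := by
      intro x hx
      have h11 : (⟨x, h6 hx⟩ : M) ∈ T'.subgroupOf M := hx
      rw [h9] at h11
      exact ⟨_, h11, rfl⟩
    exact absurd h10 (not_le_of_gt h5)
  rw [hTP] at hMeq hTM
  have hMZ : MZ q (P : Subgroup G) = M := hMeq
  -- the image of `K`
  set K' := K.map M.subtype with hK'
  have hK'P : K' ≤ P := by
    rw [← hTP]; exact Subgroup.map_mono hKS
  have hK'1 : K' ≠ ⊥ := by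
    intro h
    rw [hK', Subgroup.map_eq_bot_iff_of_injective _ M.subtype_injective] at h
    exact hK1 h
  have hNK' : normalizer (K' : Set G) = M := by
    apply normalizer_eq_of_isCoatom hG hM hK'1 (Subgroup.map_subtype_le _)
    apply ZJ.le_normalizer_of_conj_mem
    rintro g hg _ ⟨x, hx, rfl⟩
    exact ⟨⟨g, hg⟩ * x * ⟨g, hg⟩⁻¹, (inferInstance : K.Normal).conj_mem x hx ⟨g, hg⟩, rfl⟩
  have hregG : ∀ y : G, (orderOf y).Coprime q → (∀ x ∈ P, x * y = y * x) → y = 1 := by
    intro y hy hc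
    have h1 : y ∈ M := by
      rw [← hNK']
      apply centralizer_le_normalizer
      rw [mem_centralizer_iff]
      intro x hx
      exact hc x (hK'P hx)
    have h2 := hreg ⟨y, h1⟩ (by rwa [Subgroup.orderOf_mk]) (by
      intro x hx
      exact Subtype.ext (hc x (hK'P ⟨x, hx, rfl⟩)))
    exact congrArg Subtype.val h2
  -- centralizers of central elements
  have hcen : ∀ z ∈ P, z ≠ 1 → (∀ x ∈ P, z * x = x * z) →
      ∀ y ∈ centralizer ({z} : Set G), (orderOf y).Coprime q → y = 1 := by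
    intro z hz hz1 hzc y hy hyq
    refine hregG y hyq (fun x hx => ?_)
    refine nil_comm (p := q) (hCN z hz1) ?_ hy (pel_of_mem P.isPGroup' hx) hyq
    rw [mem_centralizer_singleton_iff]
    exact (hzc x hx).symm
  have hcent : ∀ x : G, x ≠ 1 → (∃ k, x ^ q ^ k = 1) → IsPGroup q (centralizer ({x} : Set G)) := by
    intro x hx1 hxk
    apply isPGroup_of_regular
    intro y hy hyq
    by_contra hy1
    -- a maximal nilpotent subgroup containing `x, y`
    obtain ⟨L, hL, hCL⟩ := exists_maxNil_ge (hCN x hx1)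
    have hxL : x ∈ L := hCL (by rw [mem_centralizer_singleton_iff])
    have hyL : y ∈ L := hCL hy
    have hhall := maxNil_hall hCN hL
    obtain ⟨z, hz, hz1, hzk, hzc⟩ := exists_center_pel (p := q) hL.1 hxL hx1 hxk
    obtain ⟨S'⟩ : Nonempty (Sylow q L) := inferInstance
    have hqL : q ∣ Nat.card L := by
      obtain ⟨k, hk⟩ := hzk
      have h1 : orderOf z ∣ q ^ k := orderOf_dvd_of_pow_eq_one hk
      obtain ⟨j, _, hj⟩ := (Nat.dvd_prime_pow hq).mp h1
      have h2 : orderOf z ∣ Nat.card L := Subgroup.orderOf_dvd_natCard L hz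
      have h3 : j ≠ 0 := by
        rintro rfl
        rw [pow_zero, orderOf_eq_one_iff] at hj
        exact hz1 hj
      exact (dvd_pow_self q h3).trans (hj ▸ h2)
    have hidx : ¬ q ∣ ((S' : Subgroup L).map L.subtype).index := by
      rw [Subgroup.index_map_subtype]
      intro h
      rcases (Nat.Prime.dvd_mul hq).mp h with h | h
      · exact S'.not_dvd_index h
      · have := Nat.Coprime.eq_one_of_dvd (Nat.Coprime.coprime_dvd_left hqL hhall) h
        exact hq.one_lt.ne' this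
    set R : Sylow q G := (S'.isPGroup'.map L.subtype).toSylow hidx with hR
    have hRL : (R : Subgroup G) ≤ L := by
      change (S' : Subgroup L).map L.subtype ≤ L
      exact Subgroup.map_subtype_le _
    have hzR : z ∈ (R : Subgroup G) :=
      ⟨⟨z, hz⟩, mem_sylow_of_nil hL.1 S' hz hzk, rfl⟩
    obtain ⟨g, hg⟩ := MulAction.exists_smul_eq G P R
    have hmem : ∀ w : G, w ∈ (P : Subgroup G) → g * w * g⁻¹ ∈ (R : Subgroup G) := by
      intro w hw
      rw [← hg]
      exact ⟨w, hw, rfl⟩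
    have hzP : g⁻¹ * z * g ∈ (P : Subgroup G) := by
      rw [← hg] at hzR
      obtain ⟨w, hw, hwz⟩ := hzR
      have h1 : g * w * g⁻¹ = z := hwz
      rw [← h1]
      have h2 : g⁻¹ * (g * w * g⁻¹) * g = w := by group
      rw [h2]; exact hw
    have h1 := hcen (g⁻¹ * z * g) hzP (by
      intro h
      apply hz1
      have : z = g * (g⁻¹ * z * g) * g⁻¹ := by group
      rw [this, h]; group) (by
      intro w hw
      have h2 := hzc _ (hRL (hmem w hw))
      calc g⁻¹ * z * g * w = g⁻¹ * (z * (g * w * g⁻¹)) * g := by group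
        _ = g⁻¹ * ((g * w * g⁻¹) * z) * g := by rw [h2]
        _ = w * (g⁻¹ * z * g) := by group) (g⁻¹ * y * g) (by
      rw [mem_centralizer_singleton_iff]
      have h2 := hzc y hyL
      calc g⁻¹ * y * g * (g⁻¹ * z * g) = g⁻¹ * (y * z) * g := by group
        _ = g⁻¹ * (z * y) * g := by rw [h2]
        _ = g⁻¹ * z * g * (g⁻¹ * y * g) := by group) (by
      have h2 : orderOf (g⁻¹ * y * g) = orderOf y := by
        have h3 : g⁻¹ * y * g = MulAut.conj g⁻¹ y := by simp
        rw [h3]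
        exact orderOf_injective (MulAut.conj g⁻¹).toMonoidHom (MulAut.conj g⁻¹).injective y
      rwa [h2])
    apply hy1
    have : y = g * (g⁻¹ * y * g) * g⁻¹ := by group
    rw [this, h1]; group
  -- fusion
  have hgood := goodLocals_of_centralizer hG hcent
  have hctrl := controlsFusion_MZ hq2 hG.1 hgood P
  rw [hMZ] at hctrl
  have h1 := Transfer.commutator_inf_eq_of_control' hTM hctrl
  have h2 : commutator G = ⊤ := by
    rcases (inferInstance : (commutator G).Normal).eq_bot_or_eq_top with h | h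
    · exfalso
      apply hG.2.2.1
      rw [commutator_eq_bot_iff_center_eq_top] at h
      refine ⟨⟨fun a b => ?_⟩⟩
      have : a ∈ center G := by rw [h]; trivial
      exact (mem_center_iff.mp this b).symm
    · exact h
  rw [h2, top_inf_eq] at h1
  have h3 : (P : Subgroup G) ≤ ⁅M, M⁆ := h1.le.trans inf_le_left
  -- the quotient
  have h4 : (commutator M).map M.subtype = ⁅M, M⁆ := by
    rw [commutator_def, Subgroup.map_commutator, ← MonoidHom.range_eq_map, M.range_subtype]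
  have h5 : (S : Subgroup M) ≤ commutator M := by
    intro x hx
    have h6 : (x : G) ∈ ⁅M, M⁆ := h3 (hTP ▸ ⟨x, hx, rfl⟩)
    rw [← h4] at h6
    obtain ⟨w, hw, hwx⟩ := h6
    have : w = x := Subtype.ext hwx
    rw [← this]; exact hw
  haveI := hKAn
  have h6 : commutator M ⊔ (K ⊔ A) = ⊤ := by
    rw [← Subgroup.index_eq_one]
    have h7 : (commutator M ⊔ (K ⊔ A)).index ∣ q ^ n := by
      rw [← hn]; exact index_dvd_of_le le_sup_right
    have h8 : (commutator M ⊔ (K ⊔ A)).index ∣ (S : Subgroup M).index :=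
      index_dvd_of_le (h5.trans le_sup_left)
    obtain ⟨j, _, hj⟩ := (Nat.dvd_prime_pow hq).mp h7
    rw [hj] at h8 ⊢
    have h9 : j = 0 := by
      by_contra h
      exact S.not_dvd_index ((dvd_pow_self q h).trans h8)
    rw [h9, pow_zero]
  have h7 : commutator (M ⧸ (K ⊔ A)) = ⊤ := by
    have h8 : (commutator M ⊔ (K ⊔ A)).map (QuotientGroup.mk' (K ⊔ A)) = ⊤ := by
      rw [h6, ← MonoidHom.range_eq_map, QuotientGroup.range_mk']
    rw [Subgroup.map_sup, QuotientGroup.map_mk'_self, sup_bot_eq, commutator_def,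
      Subgroup.map_commutator, ← MonoidHom.range_eq_map, QuotientGroup.range_mk'] at h8
    exact h8
  haveI : Nontrivial (M ⧸ (K ⊔ A)) := by
    by_contra h
    rw [not_nontrivial_iff_subsingleton] at h
    exact hKAt (QuotientGroup.subgroup_eq_top_of_subsingleton _ h)
  exact (Group.IsSolvable.commutator_lt_top_of_nontrivial (M ⧸ (K ⊔ A))).ne h7

end

end Cfsg.Agent.H25.CN
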