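import Cfsg.Prelude.Def_OddOrderChar
import Cfsg.Agent.H25.Basic

set_option autoImplicit false
open Cfsg

namespace Cfsg.Agent.H25

section Dade

variable {G : Type*} [Group G] {A : Set G} {L : Subgroup G} {H : G → Subgroup G}

theorem dade_normalizes (hD : DadeHypothesis A L H) {a : G} (ha : a ∈ A) {c : G}
    (hc : c ∈ Subgroup.centralizer ({a} : Set G)) : c ∈ Subgroup.normalizer (H a : Set G) := by
  rw [Subgroup.mem_set_normalizer_iff]
  intro h
  constructor
  · intro hh; exact hD.conj_mem_H a ha c hc h hh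
  · intro hh
    have := hD.conj_mem_H a ha c⁻¹ (Subgroup.inv_mem _ hc) _ hh
    simpa [mul_assoc] using this

theorem dade_decomp (hD : DadeHypothesis A L H) {a : G} (ha : a ∈ A) {c : G}
    (hc : c ∈ Subgroup.centralizer ({a} : Set G)) :
    ∃ u ∈ H a, ∃ l ∈ L ⊓ Subgroup.centralizer ({a} : Set G), u * l = c := by
  have h : L ⊓ Subgroup.centralizer ({a} : Set G) ≤ Subgroup.normalizer (H a : Set G) := by
    intro l hl
    exact dade_normalizes hD ha hl.2
  rw [← mem_sup_of_le_normalizer h, hD.sup_eq a ha]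
  exact hc

/-- An element of `C_G(b)` whose order is prime to `|C_L(b)|` lies in `H b`. -/
theorem dade_mem_H_of_pow (hD : DadeHypothesis A L H) {b : G} (hb : b ∈ A) {u : G}
    (hu : u ∈ Subgroup.centralizer ({b} : Set G)) {n : ℕ} (hn : u ^ n = 1)
    (hcop : Nat.Coprime n (Nat.card ↥(L ⊓ Subgroup.centralizer ({b} : Set G)))) : u ∈ H b := by
  obtain ⟨h, hh, l, hl, rfl⟩ := dade_decomp hD hb hu
  have hlN : l ∈ Subgroup.normalizer (H b : Set G) := dade_normalizes hD hb hl.2
  obtain ⟨n', hn', e⟩ := mul_pow_of_normalizes hh hlN n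
  rw [hn] at e
  have h1 : l ^ n ∈ H b := by
    have : l ^ n = n'⁻¹ := by
      rw [eq_comm, inv_eq_iff_mul_eq_one]; exact e.symm
    rw [this]; exact (H b).inv_mem hn'
  have h2 : l ^ n ∈ L ⊓ Subgroup.centralizer ({b} : Set G) := Subgroup.pow_mem _ hl n
  have h3 : l ^ n = 1 := by
    have : l ^ n ∈ H b ⊓ (L ⊓ Subgroup.centralizer ({b} : Set G)) := ⟨h1, h2⟩
    rw [hD.inf_eq_bot b hb] at this
    exact this
  have h4 : l ^ (Nat.card ↥(L ⊓ Subgroup.centralizer ({b} : Set G))) = 1 :=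
    pow_card_of_mem hl
  have h5 : l = 1 := by
    have d1 := orderOf_dvd_of_pow_eq_one h3
    have d2 := orderOf_dvd_of_pow_eq_one h4
    have := Nat.dvd_gcd d1 d2
    rw [hcop.gcd_eq_one, Nat.dvd_one] at this
    exact orderOf_eq_one_iff.1 this
  simpa [h5] using hh

theorem dade_mem_LC (hD : DadeHypothesis A L H) {a : G} (ha : a ∈ A) :
    a ∈ L ⊓ Subgroup.centralizer ({a} : Set G) :=
  ⟨hD.subset ha, Subgroup.mem_centralizer_singleton_iff.2 rfl⟩

theorem dade_H_conj_le (hD : DadeHypothesis A L H) {a : G} (ha : a ∈ A) {x : G} (hx : x ∈ L)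
    {u : G} (hu : u ∈ H a) : x * u * x⁻¹ ∈ H (x * a * x⁻¹) := by
  have hb : x * a * x⁻¹ ∈ A := hD.conj_mem x hx a ha
  refine dade_mem_H_of_pow hD hb ?_ (n := Nat.card (H a)) ?_ (hD.coprime a ha _ hb)
  · have hc := hD.le_centralizer a ha hu
    rw [Subgroup.mem_centralizer_singleton_iff] at hc ⊢
    calc x * u * x⁻¹ * (x * a * x⁻¹) = x * (u * a) * x⁻¹ := by group
      _ = x * (a * u) * x⁻¹ := by rw [hc]
      _ = x * a * x⁻¹ * (x * u * x⁻¹) := by group
  · have h1 : u ^ Nat.card (H a) = 1 := pow_card_of_mem hu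
    rw [conj_pow, h1]; group

theorem dade_H_conj (hD : DadeHypothesis A L H) {a : G} (ha : a ∈ A) {x : G} (hx : x ∈ L) :
    H (x * a * x⁻¹) = (H a).map (MulAut.conj x).toMonoidHom := by
  have hb : x * a * x⁻¹ ∈ A := hD.conj_mem x hx a ha
  ext w
  simp only [Subgroup.mem_map]
  constructor
  · intro hw
    refine ⟨x⁻¹ * w * x, ?_, ?_⟩
    · have := dade_H_conj_le hD hb (L.inv_mem hx) hw
      simpa [mul_assoc] using this
    · simp [mul_assoc]
  · rintro ⟨u, hu, rfl⟩
    simpa using dade_H_conj_le hD ha hx hu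

/-- The exponent used to recover `a` from `a * u`, uniform for a pair `a, b ∈ A`. -/
theorem dade_exponent [Finite G] (hD : DadeHypothesis A L H) {a b : G} (ha : a ∈ A) (hb : b ∈ A) :
    ∃ k : ℕ, (∀ u ∈ H a, (a * u) ^ k = a) ∧ (∀ v ∈ H b, (b * v) ^ k = b) ∧ a ^ k = a ∧ b ^ k = b := by
  have hcop : Nat.Coprime
      (Nat.card ↥(L ⊓ Subgroup.centralizer ({a} : Set G)) *
        Nat.card ↥(L ⊓ Subgroup.centralizer ({b} : Set G)))
      (Nat.card (H a) * Nat.card (H b)) := by
    apply Nat.Coprime.mul_left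
    · exact Nat.Coprime.mul_right (hD.coprime a ha a ha).symm (hD.coprime b hb a ha).symm
    · exact Nat.Coprime.mul_right (hD.coprime a ha b hb).symm (hD.coprime b hb b hb).symm
  obtain ⟨k, hk1, hk2⟩ := exists_crt_exponent hcop
  have hca : a ^ (Nat.card ↥(L ⊓ Subgroup.centralizer ({a} : Set G))) = 1 :=
    pow_card_of_mem (dade_mem_LC hD ha)
  have hcb : b ^ (Nat.card ↥(L ⊓ Subgroup.centralizer ({b} : Set G))) = 1 :=
    pow_card_of_mem (dade_mem_LC hD hb)
  have comm : ∀ {c : G}, c ∈ A → ∀ u ∈ H c, Commute c u := by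
    intro c hc u hu
    have := hD.le_centralizer c hc hu
    rw [Subgroup.mem_centralizer_singleton_iff] at this
    exact this.symm
  refine ⟨k, ?_, ?_, ?_, ?_⟩
  · intro u hu
    exact commute_mul_pow_crt (comm ha u hu) hca (pow_card_of_mem hu)
      (hk1.of_dvd (Nat.dvd_mul_right _ _)) ((Nat.dvd_mul_right _ _).trans hk2)
  · intro u hu
    exact commute_mul_pow_crt (comm hb u hu) hcb (pow_card_of_mem hu)
      (hk1.of_dvd (Nat.dvd_mul_left _ _)) ((Nat.dvd_mul_left _ _).trans hk2)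
  · exact pow_eq_self_of_modEq hca (hk1.of_dvd (Nat.dvd_mul_right _ _))
  · exact pow_eq_self_of_modEq hcb (hk1.of_dvd (Nat.dvd_mul_left _ _))

/-- If `a u` is conjugate to `b v` by `g`, then `a` is conjugate to `b` by `g`. -/
theorem dade_conj_of_coset_conj [Finite G] (hD : DadeHypothesis A L H) {a b : G} (ha : a ∈ A)
    (hb : b ∈ A) {u v g : G} (hu : u ∈ H a) (hv : v ∈ H b) (h : g * (a * u) * g⁻¹ = b * v) :
    g * a * g⁻¹ = b := by
  obtain ⟨k, h1, h2, _, _⟩ := dade_exponent hD ha hb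
  have := congrArg (· ^ k) h
  simp only [conj_pow, h1 u hu, h2 v hv] at this
  exact this

theorem dade_fusion' (hD : DadeHypothesis A L H) {a b : G} (ha : a ∈ A) (hb : b ∈ A) {g : G}
    (h : g * a * g⁻¹ = b) : ∃ x ∈ L, x * a * x⁻¹ = b := by
  obtain ⟨x, hx, e⟩ := hD.fusion a ha g (h ▸ hb)
  exact ⟨x, hx, e.trans h⟩

theorem dade_coset_normalizer [Finite G] (hD : DadeHypothesis A L H) {a : G} (ha : a ∈ A) :
    Subgroup.normalizer ((fun u : G => a * u) '' (H a : Set G)) =
      Subgroup.centralizer ({a} : Set G) := by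
  ext g
  constructor
  · intro hg
    rw [Subgroup.mem_set_normalizer_iff] at hg
    have := (hg (a * 1)).1 ⟨1, (H a).one_mem, rfl⟩
    obtain ⟨u, hu, e⟩ := this
    have h := dade_conj_of_coset_conj hD ha ha (g := g) (H a).one_mem hu (by simpa using e.symm)
    rw [Subgroup.mem_centralizer_singleton_iff]
    calc g * a = g * a * g⁻¹ * g := by group
      _ = a * g := by rw [h]
  · intro hg
    have hgN := dade_normalizes hD ha hg
    rw [Subgroup.mem_set_normalizer_iff] at hgN ⊢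
    rw [Subgroup.mem_centralizer_singleton_iff] at hg
    intro w
    constructor
    · rintro ⟨u, hu, rfl⟩
      refine ⟨g * u * g⁻¹, (hgN u).1 hu, ?_⟩
      calc a * (g * u * g⁻¹) = a * g * u * g⁻¹ := by group
        _ = g * a * u * g⁻¹ := by rw [hg]
        _ = g * (a * u) * g⁻¹ := by group
    · rintro ⟨u, hu, e⟩
      refine ⟨g⁻¹ * u * g, (hgN _).2 ?_, ?_⟩
      · simpa [mul_assoc] using hu
      · have hg' : a * g⁻¹ = g⁻¹ * a := by
          calc a * g⁻¹ = g⁻¹ * (g * a) * g⁻¹ := by group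
            _ = g⁻¹ * (a * g) * g⁻¹ := by rw [hg]
            _ = g⁻¹ * a := by group
        have e' : a * u = g * w * g⁻¹ := e
        show a * (g⁻¹ * u * g) = w
        calc a * (g⁻¹ * u * g) = a * g⁻¹ * u * g := by group
          _ = g⁻¹ * a * u * g := by rw [hg']
          _ = g⁻¹ * (a * u) * g := by group
          _ = w := by rw [e']; group

end Dade

end Cfsg.Agent.H25
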