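import Mathlib
import Cfsg.Agent.FrobThm.Orders

/-!
# Determining the order type from the set of same-order counts: a verified search
-/

set_option autoImplicit false

namespace Cfsg.Agent.H25.Nse

open Cfsg.Agent.FrobThm

theorem beq_false {a b : ℕ} (h : a ≠ b) : Nat.beq a b = false := by
  cases hb : Nat.beq a b with
  | false => rfl
  | true => exact absurd (Nat.eq_of_beq_eq_true hb) h

/-- sum of the values whose key divides `n` -/
def sdiv : List (ℕ × ℕ) → ℕ → ℕ
  | [], _ => 0
  | p :: l, n => bif Nat.beq (n % p.1) 0 then p.2 + sdiv l n else sdiv l n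

/-- total of the values -/
def tot : List (ℕ × ℕ) → ℕ
  | [] => 0
  | p :: l => p.2 + tot l

/-- look up a key -/
def lk : List (ℕ × ℕ) → ℕ → ℕ
  | [], _ => 0
  | p :: l, d => bif Nat.beq p.1 d then p.2 else lk l d

/-- sum of looked up values -/
def slk (asg : List (ℕ × ℕ)) : List ℕ → ℕ
  | [] => 0
  | d :: l => lk asg d + slk asg l

/-- local test -/
def step (m : ℕ) (ds : List ℕ) (v : ℕ) (asg : List (ℕ × ℕ)) : Bool :=
  ds.all (fun d => !(Nat.beq (lk asg d) 0)) && Nat.beq ((v + slk asg ds) % m) 0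

/-- depth first search -/
def dfs (final : List (ℕ × ℕ) → Bool) : List (ℕ × List ℕ × List ℕ) → List (ℕ × ℕ) → Bool
  | [], asg => final asg
  | t :: rest, asg => t.2.2.all (fun v =>
      bif Nat.beq v 0 then dfs final rest asg
      else bif step t.1 t.2.1 v asg then dfs final rest ((t.1, v) :: asg) else true)

/-- the actual assignment -/
def acc (s : ℕ → ℕ) (P : List ℕ) : List (ℕ × ℕ) :=
  P.foldl (fun a m => if s m = 0 then a else (m, s m) :: a) []

theorem acc_concat (s : ℕ → ℕ) (P : List ℕ) (m : ℕ) :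
    acc s (P ++ [m]) = if s m = 0 then acc s P else (m, s m) :: acc s P := by
  unfold acc
  rw [List.foldl_append]
  rfl

theorem lk_acc (s : ℕ → ℕ) (P : List ℕ) : ∀ d ∈ P, lk (acc s P) d = s d := by
  induction P using List.reverseRecOn with
  | nil => intro d hd; simp at hd
  | append_singleton P m ih =>
    intro d hd
    have key : ∀ d ∈ P, lk (acc s P) d = s d := ih
    have key2 : ∀ (Q : List ℕ) (d : ℕ), s d = 0 → lk (acc s Q) d = 0 := by
      intro Q d hd
      induction Q using List.reverseRecOn with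
      | nil => rfl
      | append_singleton Q m ih =>
        rw [acc_concat]
        by_cases hm : s m = 0
        · rw [if_pos hm]; exact ih
        · rw [if_neg hm]
          have hne : m ≠ d := by rintro rfl; exact hm hd
          show (bif Nat.beq m d then s m else lk (acc s Q) d) = 0
          rw [beq_false hne]
          exact ih
    rw [acc_concat]
    by_cases hm : s m = 0
    · rw [if_pos hm]
      rw [List.mem_append, List.mem_singleton] at hd
      rcases hd with hd | rfl
      · exact key d hd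
      · rw [key2 P d hm, hm]
    · rw [if_neg hm]
      show (bif Nat.beq m d then s m else lk (acc s P) d) = s d
      by_cases hmd : m = d
      · subst hmd
        rw [Nat.beq_refl]; rfl
      · rw [beq_false hmd]
        rw [List.mem_append, List.mem_singleton] at hd
        rcases hd with hd | rfl
        · exact key d hd
        · exact absurd rfl hmd

theorem slk_acc (s : ℕ → ℕ) (P : List ℕ) : ∀ ds : List ℕ, (∀ d ∈ ds, d ∈ P) →
    slk (acc s P) ds = (ds.map s).sum := by
  intro ds
  induction ds with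
  | nil => intro _; rfl
  | cons d ds ih =>
    intro h
    show lk (acc s P) d + slk (acc s P) ds = _
    rw [lk_acc s P d (h d (List.mem_cons_self)), ih (fun e he => h e (List.mem_cons_of_mem _ he)),
      List.map_cons, List.sum_cons]

theorem tot_acc (s : ℕ → ℕ) (P : List ℕ) : tot (acc s P) = (P.map s).sum := by
  induction P using List.reverseRecOn with
  | nil => rfl
  | append_singleton P m ih =>
    rw [acc_concat, List.map_append, List.sum_append]
    by_cases hm : s m = 0
    · rw [if_pos hm, ih]; simp [hm]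
    · rw [if_neg hm]
      show s m + tot (acc s P) = _
      rw [ih]; simp [add_comm]

theorem sdiv_acc (s : ℕ → ℕ) (n : ℕ) (P : List ℕ) :
    sdiv (acc s P) n = ((P.filter (fun m => n % m = 0)).map s).sum := by
  induction P using List.reverseRecOn with
  | nil => rfl
  | append_singleton P m ih =>
    rw [acc_concat, List.filter_append, List.map_append, List.sum_append]
    by_cases hm : s m = 0
    · rw [if_pos hm, ih]
      by_cases h : n % m = 0
      · simp [h, hm]
      · simp [h]
    · rw [if_neg hm]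
      show (bif Nat.beq (n % m) 0 then s m + sdiv (acc s P) n else sdiv (acc s P) n) = _
      by_cases h : n % m = 0
      · rw [h, Nat.beq_refl, cond_true, ih]; simp [h, add_comm]
      · rw [beq_false h, cond_false, ih]; simp [h]

theorem mem_acc (s : ℕ → ℕ) (P : List ℕ) (q : ℕ × ℕ) :
    q ∈ acc s P ↔ q.1 ∈ P ∧ q.2 = s q.1 ∧ s q.1 ≠ 0 := by
  induction P using List.reverseRecOn with
  | nil => simp [acc]
  | append_singleton P m ih =>
    rw [acc_concat]
    by_cases hm : s m = 0
    · rw [if_pos hm, ih, List.mem_append, List.mem_singleton]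
      constructor
      · rintro ⟨h1, h2⟩; exact ⟨Or.inl h1, h2⟩
      · rintro ⟨h1 | h1, h2, h3⟩
        · exact ⟨h1, h2, h3⟩
        · rw [h1] at h3; exact absurd hm h3
    · rw [if_neg hm, List.mem_cons, ih, List.mem_append, List.mem_singleton]
      constructor
      · rintro (rfl | ⟨h1, h2⟩)
        · exact ⟨Or.inr rfl, rfl, hm⟩
        · exact ⟨Or.inl h1, h2⟩
      · rintro ⟨h1 | h1, h2, h3⟩
        · exact Or.inr ⟨h1, h2, h3⟩
        · left
          obtain ⟨a, b⟩ := q
          simp only at h1 h2 h3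
          subst h1
          rw [h2]

/-- the table lists the proper divisors, all of them occurring earlier -/
def tchk : List ℕ → List (ℕ × List ℕ × List ℕ) → Bool
  | _, [] => true
  | P, t :: R => decide (0 < t.1) && decide (t.2.1.toFinset = t.1.properDivisors) &&
      decide t.2.1.Nodup && t.2.1.all (fun d => P.contains d) && !(P.contains t.1) &&
      tchk (P ++ [t.1]) R

/-- The keys of a table. -/
def keys (L : List (ℕ × List ℕ × List ℕ)) : List ℕ := L.map Prod.fst

theorem dfs_sound (s : ℕ → ℕ) (hs : ∀ m, s m ≠ 0 → ∀ d, d ∣ m → s d ≠ 0)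
    (hF : ∀ m, s m ≠ 0 → m ∣ ∑ d ∈ m.divisors, s d) (final : List (ℕ × ℕ) → Bool) :
    ∀ (L : List (ℕ × List ℕ × List ℕ)) (P : List ℕ), tchk P L = true →
      (∀ t ∈ L, s t.1 ∈ t.2.2) → dfs final L (acc s P) = true →
        final (acc s (P ++ keys L)) = true := by
  intro L
  induction L with
  | nil =>
    intro P _ _ h
    simpa [keys, dfs] using h
  | cons t R ih =>
    intro P ht hv h
    simp only [tchk, Bool.and_eq_true, decide_eq_true_eq, List.all_eq_true,
      Bool.not_eq_true'] at ht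
    obtain ⟨⟨⟨⟨⟨h0, h1⟩, h2⟩, h3⟩, -⟩, h4⟩ := ht
    rw [dfs, List.all_eq_true] at h
    have h5 := h _ (hv t (List.mem_cons_self))
    have h6 := ih (P ++ [t.1]) h4 (fun u hu => hv u (List.mem_cons_of_mem _ hu))
    have h7 : P ++ keys (t :: R) = (P ++ [t.1]) ++ keys R := by simp [keys]
    rw [h7]
    apply h6
    rw [acc_concat]
    by_cases hm : s t.1 = 0
    · rw [if_pos hm]
      rw [hm, Nat.beq_refl, cond_true] at h5
      exact h5
    · rw [if_neg hm]
      rw [beq_false hm, cond_false] at h5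
      have hP : ∀ d ∈ t.2.1, d ∈ P := fun d hd => by
        have := h3 d hd
        simpa using this
      have hst : step t.1 t.2.1 (s t.1) (acc s P) = true := by
        unfold step
        rw [Bool.and_eq_true]
        constructor
        · rw [List.all_eq_true]
          intro d hd
          have hd2 : d ∈ t.1.properDivisors := by
            rw [← h1]; exact List.mem_toFinset.2 hd
          have hd3 := hs _ hm d (Nat.mem_properDivisors.1 hd2).1
          rw [lk_acc s P d (hP d hd), beq_false hd3]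
          rfl
        · rw [slk_acc s P _ hP, ← List.sum_toFinset s h2, h1]
          have h8 := hF _ hm
          rw [← Nat.insert_self_properDivisors h0.ne',
            Finset.sum_insert Nat.self_notMem_properDivisors] at h8
          rw [Nat.mod_eq_zero_of_dvd h8]
          rfl
      rw [hst, cond_true] at h5
      exact h5

theorem tchk_nodup : ∀ (L : List (ℕ × List ℕ × List ℕ)) (P : List ℕ), tchk P L = true →
    P.Nodup → (P ++ keys L).Nodup := by
  intro L
  induction L with
  | nil => intro P _ hP; simpa [keys] using hP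
  | cons t R ih =>
    intro P ht hP
    simp only [tchk, Bool.and_eq_true, decide_eq_true_eq, List.all_eq_true,
      Bool.not_eq_true'] at ht
    obtain ⟨⟨⟨⟨⟨h0, h1⟩, h2⟩, h3⟩, h5⟩, h4⟩ := ht
    have h7 : P ++ keys (t :: R) = (P ++ [t.1]) ++ keys R := by simp [keys]
    rw [h7]
    apply ih _ h4
    have h6 : t.1 ∉ P := by
      intro h
      have h8 : P.contains t.1 = true := by simpa using h
      rw [h5] at h8
      exact Bool.false_ne_true h8
    rw [List.nodup_append]
    refine ⟨hP, List.nodup_singleton _, ?_⟩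
    intro a ha b hb
    rw [List.mem_singleton] at hb
    rintro rfl
    exact h6 (hb ▸ ha)

/-- final test -/
def fin (E V T : List ℕ) (target : List (ℕ × ℕ)) (asg : List (ℕ × ℕ)) : Bool :=
  asg.all (fun p => !(E.contains p.1)) &&
    (bif asg.all (fun p => Nat.beq (tot asg % p.1) 0) &&
        V.all (fun v => asg.any (fun p => Nat.beq p.2 v)) &&
        T.all (fun n => bif Nat.beq (tot asg % n) 0 then Nat.beq (sdiv asg n % n) 0 else true)
      then decide (asg = target) else true)

theorem solve (G : Type*) [Group G] [Finite G] (V E T : List ℕ) (target : List (ℕ × ℕ))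
    (L : List (ℕ × List ℕ × List ℕ))
    (hvals : ∀ t ∈ L, so G t.1 ∈ t.2.2)
    (hV : ∀ v ∈ V, ∃ m, so G m = v ∧ v ≠ 0)
    (hL : tchk [] L = true)
    (hE : ∀ e ∈ E, e ∈ keys L)
    (hred : (∀ e ∈ E, so G e = 0) → ∀ m, so G m ≠ 0 → m ∈ keys L)
    (hdfs : dfs (fin E V T target) L [] = true) :
    Nat.card G = tot target ∧ (∀ m ∈ keys L, so G m = lk target m) ∧
      ∀ m, m ∉ keys L → so G m = 0 := by
  have hdvdN : ∀ m, so G m ≠ 0 → m ∣ Nat.card G := by
    intro m hm
    obtain ⟨g, rfl⟩ := (so_ne_zero_iff m).1 hm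
    exact orderOf_dvd_natCard g
  have hs : ∀ m, so G m ≠ 0 → ∀ d, d ∣ m → so G d ≠ 0 := by
    intro m hm d hd
    obtain ⟨g, rfl⟩ := (so_ne_zero_iff m).1 hm
    rw [so_ne_zero_iff]
    refine ⟨g ^ (orderOf g / d), ?_⟩
    exact orderOf_pow_orderOf_div (orderOf_pos g).ne' hd
  have hF : ∀ m, so G m ≠ 0 → m ∣ ∑ d ∈ m.divisors, so G d :=
    fun m hm => dvd_sum_so m (hdvdN m hm)
  have h1 := dfs_sound (so G) hs hF (fin E V T target) L [] hL hvals hdfs
  rw [List.nil_append] at h1
  unfold fin at h1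
  rw [Bool.and_eq_true] at h1
  obtain ⟨h2, h3⟩ := h1
  have hE0 : ∀ e ∈ E, so G e = 0 := by
    intro e he
    by_contra hne
    rw [List.all_eq_true] at h2
    have h4 := h2 (e, so G e) ((mem_acc _ _ _).2 ⟨hE e he, rfl, hne⟩)
    have h5 : E.contains e = true := by simpa using he
    simp only [h5] at h4
    exact Bool.false_ne_true h4
  have hkeys := hred hE0
  have hnd : (keys L).Nodup := by
    have := tchk_nodup L [] hL List.nodup_nil
    rwa [List.nil_append] at this
  have hsumdiv : ∀ n, n ≠ 0 → sdiv (acc (so G) (keys L)) n = ∑ d ∈ n.divisors, so G d := by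
    intro n hn
    rw [sdiv_acc, ← List.sum_toFinset _ (hnd.filter _)]
    apply Finset.sum_subset_zero_on_sdiff
    · intro m hm
      rw [List.mem_toFinset, List.mem_filter] at hm
      rw [Nat.mem_divisors]
      exact ⟨Nat.dvd_of_mod_eq_zero (by simpa using hm.2), hn⟩
    · intro m hm
      rw [Finset.mem_sdiff, List.mem_toFinset, List.mem_filter] at hm
      by_contra hne
      exact hm.2 ⟨hkeys m hne, by
        simpa using Nat.mod_eq_zero_of_dvd (Nat.dvd_of_mem_divisors hm.1)⟩
    · intro m _; rfl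
  have hNpos : Nat.card G ≠ 0 := Nat.card_pos.ne'
  have hcardsum : ∑ d ∈ (Nat.card G).divisors, so G d = Nat.card G := by
    rw [sum_so _ hNpos]
    apply Nat.card_congr
    exact Equiv.subtypeUnivEquiv (fun g => pow_card_eq_one')
  have htot : tot (acc (so G) (keys L)) = Nat.card G := by
    have h4 := hsumdiv _ hNpos
    rw [hcardsum, sdiv_acc] at h4
    rw [tot_acc]
    refine Eq.trans ?_ h4
    rw [← List.sum_toFinset _ (hnd.filter _), ← List.sum_toFinset _ hnd]
    symm
    apply Finset.sum_subset_zero_on_sdiff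
    · intro m hm
      rw [List.mem_toFinset, List.mem_filter] at hm
      exact List.mem_toFinset.2 hm.1
    · intro m hm
      rw [Finset.mem_sdiff, List.mem_toFinset, List.mem_toFinset, List.mem_filter] at hm
      by_contra hne
      exact hm.2 ⟨hm.1, by simpa using Nat.mod_eq_zero_of_dvd (hdvdN m hne)⟩
    · intro m _; rfl
  have hc : (List.all (acc (so G) (keys L)) (fun p => Nat.beq (tot (acc (so G) (keys L)) % p.1) 0) &&
        V.all (fun v => (acc (so G) (keys L)).any (fun p => Nat.beq p.2 v)) &&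
        T.all (fun n => bif Nat.beq (tot (acc (so G) (keys L)) % n) 0 then
          Nat.beq (sdiv (acc (so G) (keys L)) n % n) 0 else true)) = true := by
    rw [Bool.and_eq_true, Bool.and_eq_true]
    refine ⟨⟨?_, ?_⟩, ?_⟩
    · rw [List.all_eq_true]
      intro p hp
      have h5 := (mem_acc _ _ _).1 hp
      rw [htot, Nat.mod_eq_zero_of_dvd (hdvdN _ h5.2.2)]
      rfl
    · rw [List.all_eq_true]
      intro v hv
      obtain ⟨m, hm, hv0⟩ := hV v hv
      rw [List.any_eq_true]
      have hm0 : so G m ≠ 0 := by rw [hm]; exact hv0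
      refine ⟨(m, so G m), (mem_acc _ _ _).2 ⟨hkeys m hm0, rfl, hm0⟩, ?_⟩
      rw [hm]; exact Nat.beq_refl v
    · rw [List.all_eq_true]
      intro n _
      rw [htot]
      by_cases hn : Nat.card G % n = 0
      · have hn0 : n ≠ 0 := by
          rintro rfl
          rw [Nat.mod_zero] at hn
          exact hNpos hn
        rw [hn, Nat.beq_refl, cond_true, hsumdiv n hn0,
          Nat.mod_eq_zero_of_dvd (dvd_sum_so n (Nat.dvd_of_mod_eq_zero hn))]
        rfl
      · rw [beq_false hn, cond_false]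
  rw [hc, cond_true, decide_eq_true_eq] at h3
  refine ⟨by rw [← h3, htot], fun m hm => by rw [← h3, lk_acc _ _ m hm], ?_⟩
  intro m hm
  by_contra hne
  exact hm (hkeys m hne)

theorem red (G : Type*) [Group G] [Finite G] (V : List ℕ) (PB : List (ℕ × ℕ)) (A B : ℕ)
    (K E : List ℕ) (hV : ∀ m, so G m ≠ 0 → so G m ∈ V)
    (hA : A ≠ 0) (hB : B ≠ 0)
    (hVb : ∀ v ∈ V, 1 + v < 146)
    (hprime : ∀ v ∈ V, ∀ p ∈ List.range 146, p ∣ 1 + v → (p - 1) ∣ v → p.Prime →
      ∃ q ∈ PB, q.1 = p)
    (hPB : ∀ q ∈ PB, q.1 ^ q.2 ∣ A * B ∧ q.1 ^ (q.2 + 1) ∈ E)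
    (hAB : ∀ a ∈ A.divisors, ∀ b ∈ B.divisors, a * b ∈ K ∨ ∃ e ∈ E, e ∣ a * b)
    (hE : ∀ e ∈ E, so G e = 0) : ∀ m, so G m ≠ 0 → m ∈ K := by
  have hs : ∀ m, so G m ≠ 0 → ∀ d, d ∣ m → so G d ≠ 0 := by
    intro m hm d hd
    obtain ⟨g, rfl⟩ := (so_ne_zero_iff m).1 hm
    rw [so_ne_zero_iff]
    refine ⟨g ^ (orderOf g / d), ?_⟩
    exact orderOf_pow_orderOf_div (orderOf_pos g).ne' hd
  intro m hm
  have hdvd : m ∣ A * B := by
    rw [Nat.dvd_iff_prime_pow_dvd_dvd]
    intro p k hp hk
    rcases Nat.eq_zero_or_pos k with rfl | hk0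
    · simp
    have hpm : p ∣ m := (dvd_pow_self p hk0.ne').trans hk
    have hsp := hs m hm p hpm
    have hpG : p ∣ Nat.card G := by
      obtain ⟨g, hg⟩ := (so_ne_zero_iff p).1 hsp
      rw [← hg]; exact orderOf_dvd_natCard g
    have h1 := dvd_so_prime p hp hpG
    have h2 := totient_dvd_so (G := G) p
    rw [Nat.totient_prime hp] at h2
    have h3 : p < 146 := lt_of_le_of_lt (Nat.le_of_dvd (by omega) h1) (hVb _ (hV p hsp))
    obtain ⟨q, hq, hqp⟩ := hprime _ (hV p hsp) p (List.mem_range.2 h3) h1 h2 hp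
    obtain ⟨h4, h5⟩ := hPB q hq
    rw [hqp] at h4 h5
    have h6 : k ≤ q.2 := by
      by_contra hcon
      have h7 : p ^ (q.2 + 1) ∣ m := (pow_dvd_pow p (by omega)).trans hk
      exact hs m hm _ h7 (hE _ h5)
    exact (pow_dvd_pow p h6).trans h4
  obtain ⟨a, b, ha, hb, rfl⟩ := Nat.dvd_mul.1 hdvd
  rcases hAB a (Nat.mem_divisors.2 ⟨ha, hA⟩) b (Nat.mem_divisors.2 ⟨hb, hB⟩) with h | ⟨e, he, hd⟩
  · exact h
  · exact absurd (hE e he) (hs _ hm e hd)

/-- the values allowed in a table -/
theorem vals_ok (G : Type*) [Group G] [Finite G] (V : List ℕ) (v2 : ℕ)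
    (L : List (ℕ × List ℕ × List ℕ)) (hV : ∀ m, so G m ≠ 0 → so G m ∈ V) (h2 : so G 2 = v2)
    (hL : ∀ t ∈ L, (t.1 = 1 ∧ 1 ∈ t.2.2) ∨ (t.1 = 2 ∧ v2 ∈ t.2.2) ∨
      (0 ∈ t.2.2 ∧ ∀ v ∈ V, t.1.totient ∣ v → v ∈ t.2.2)) :
    ∀ t ∈ L, so G t.1 ∈ t.2.2 := by
  intro t ht
  rcases hL t ht with ⟨h3, h4⟩ | ⟨h3, h4⟩ | ⟨h3, h4⟩
  · rw [h3, so_one]; exact h4
  · rw [h3, h2]; exact h4
  · by_cases h5 : so G t.1 = 0
    · rw [h5]; exact h3
    · exact h4 _ (hV _ h5) (totient_dvd_so _)

theorem so_two (G : Type*) [Group G] [Finite G] {v2 : ℕ} (h1 : v2 ≠ 1) (hodd : Odd v2)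
    (h : ∃ m, so G m = v2) : so G 2 = v2 := by
  obtain ⟨m, hm⟩ := h
  have h3 : ¬ 2 < m := fun h4 => by
    have := even_so (G := G) m h4
    rw [hm] at this
    exact (Nat.not_even_iff_odd.2 hodd) this
  have h5 : m ≠ 0 := by
    rintro rfl
    have : so G 0 ≠ 0 := by rw [hm]; exact hodd.pos.ne'
    obtain ⟨g, hg⟩ := (so_ne_zero_iff 0).1 this
    exact (orderOf_pos g).ne' hg
  have h6 : m ≠ 1 := by
    rintro rfl
    rw [so_one] at hm
    exact h1 hm.symm
  obtain rfl : m = 2 := by omega
  exact hm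

end Cfsg.Agent.H25.Nse
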