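import Mathlib
import Cfsg.Agent.FrobThm.Orders

/-!
# Identification of `A_5` and `A_6` by their order type
-/

set_option autoImplicit false

namespace Cfsg.Agent.H25.Nse

open Cfsg.Agent.FrobThm Subgroup

theorem mem_of_coprime {G : Type*} [Group G] [Finite G] (K : Subgroup G) [K.Normal] {p : ℕ}
    {x : G} (hx : orderOf x = p) (hp : Nat.Coprime p K.index) : x ∈ K := by
  have h1 : x ^ K.index ∈ K := K.pow_index_mem x
  obtain ⟨k, hk⟩ : ∃ k : ℕ, (x ^ K.index) ^ k = x := by
    obtain ⟨k, hk⟩ := exists_pow_eq_self_of_coprime (x := x) (n := K.index)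
      (by rw [hx]; exact hp.symm)
    exact ⟨k, hk⟩
  rw [← hk]
  exact K.pow_mem h1 k

theorem so_le {G : Type*} [Group G] [Finite G] (K : Subgroup G) {d : ℕ}
    (h : ∀ x : G, orderOf x = d → x ∈ K) : so G d ≤ so K d := by
  unfold so
  apply Nat.card_le_card_of_injective
    (fun x : {g : G // orderOf g = d} =>
      (⟨⟨x.1, h x.1 x.2⟩, (Subgroup.orderOf_mk _ _).trans x.2⟩ : {g : K // orderOf g = d}))
  intro x y hxy
  apply Subtype.ext
  have := congrArg (fun z : {g : K // orderOf g = d} => ((z : K) : G)) hxy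
  exact this

theorem sum_le {G : Type*} [Group G] [Finite G] (K : Subgroup G) (D : Finset ℕ)
    (h : ∀ d ∈ D, ∀ x : G, orderOf x = d → x ∈ K) : ∑ d ∈ D, so G d ≤ Nat.card K :=
  (Finset.sum_le_sum (fun d hd => so_le K (h d hd))).trans (sum_so_le (G := K) D)

theorem dvd_card_of_conj {G : Type*} [Group G] [Finite G] {p : ℕ} (hp : p.Prime) {g : G}
    (hg : orderOf g = p) (S : Set G) (hS : ∀ h : G, ∀ x ∈ S, h * x * h⁻¹ ∈ S)
    (hfix : ∀ x ∈ S, g * x ≠ x * g) : p ∣ Nat.card S := by
  have := Fact.mk hp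
  let act : MulAction (zpowers g) S :=
    { smul := fun h x => ⟨(h : G) * x * (h : G)⁻¹, hS h x x.2⟩
      one_smul := by
        intro x
        apply Subtype.ext
        show ((1 : zpowers g) : G) * x * ((1 : zpowers g) : G)⁻¹ = x
        simp
      mul_smul := by
        intro c d x
        apply Subtype.ext
        show ((c * d : zpowers g) : G) * x * ((c * d : zpowers g) : G)⁻¹ =
          c * (d * x * (d : G)⁻¹) * (c : G)⁻¹
        push_cast
        group }
  have hpg : IsPGroup p (zpowers g) := IsPGroup.of_card (n := 1) (by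
    rw [Nat.card_zpowers, hg, pow_one])
  have h1 := hpg.card_modEq_card_fixedPoints S
  have h2 : IsEmpty (MulAction.fixedPoints (zpowers g) S) := by
    constructor
    rintro ⟨x, hx⟩
    have h3 := hx ⟨g, mem_zpowers g⟩
    have h4 : g * x * g⁻¹ = x := congrArg Subtype.val h3
    rw [mul_inv_eq_iff_eq_mul] at h4
    exact hfix x x.2 h4
  have h0 : Nat.card (MulAction.fixedPoints (zpowers g) S) = 0 := Nat.card_of_isEmpty
  rw [h0] at h1
  exact (Nat.modEq_zero_iff_dvd).1 h1

theorem no_comm {G : Type*} [Group G] [Finite G] {p : ℕ} (hp : p.Prime) {g : G}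
    (hg : orderOf g = p) {x : G} (hx1 : x ≠ 1) (hc : g * x = x * g) (n : ℕ) (hxn : orderOf x ∣ n)
    (hpn : ¬ p ∣ n) : ∃ q : ℕ, q.Prime ∧ q ∣ n ∧ so G (p * q) ≠ 0 := by
  obtain ⟨q, hq, hqx⟩ := Nat.exists_prime_and_dvd (fun h => hx1 (orderOf_eq_one_iff.1 h))
  refine ⟨q, hq, hqx.trans hxn, ?_⟩
  rw [so_ne_zero_iff]
  have hy := orderOf_pow_orderOf_div (orderOf_pos x).ne' hqx
  refine ⟨g * x ^ (orderOf x / q), ?_⟩
  have hcm : Commute g (x ^ (orderOf x / q)) := (show Commute g x from hc).pow_right _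
  rw [hcm.orderOf_mul_eq_mul_orderOf_of_coprime, hg, hy]
  rw [hg, hy, Nat.coprime_primes hp hq]
  rintro rfl
  exact hpn (hqx.trans hxn)

theorem card_mod {G : Type*} [Group G] [Finite G] {p : ℕ} (hp : p.Prime) {g : G}
    (hg : orderOf g = p) (K : Subgroup G) [K.Normal] (hpn : ¬ p ∣ Nat.card K)
    (hq : ∀ q : ℕ, q.Prime → q ∣ Nat.card K → so G (p * q) = 0) :
    p ∣ Nat.card K - 1 := by
  have h1 := dvd_card_of_conj hp hg ((K : Set G) \ {1}) (by
    rintro h x ⟨hx, hx1⟩
    refine ⟨Subgroup.Normal.conj_mem inferInstance x hx h, ?_⟩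
    intro h2
    rw [Set.mem_singleton_iff] at h2 hx1
    exact hx1 (by simpa using h2)) (by
    rintro x ⟨hx, hx1⟩ hc
    obtain ⟨q, h3, h4, h5⟩ := no_comm hp hg hx1 hc (Nat.card K)
      (by
        have := orderOf_dvd_natCard (⟨x, hx⟩ : K)
        rwa [Subgroup.orderOf_mk] at this) hpn
    exact h5 (hq q h3 h4))
  have h2 : Nat.card ((K : Set G) \ {1} : Set G) = Nat.card K - 1 := by
    have h3 : (((K : Set G) \ {1} : Set G)).ncard = (K : Set G).ncard - 1 :=
      Set.ncard_sdiff_singleton_of_mem (one_mem K)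
    exact h3
  rwa [h2] at h1

theorem simple60 {G : Type*} [Group G] [Finite G] (hG : Nat.card G = 60)
    (h3 : so G 3 = 20) (h5 : so G 5 = 24) (h10 : so G 10 = 0) : IsSimpleGroup G := by
  have hnt : Nontrivial G := Finite.one_lt_card_iff_nontrivial.1 (by rw [hG]; norm_num)
  refine ⟨fun K hK => ?_⟩
  by_contra hcon
  push Not at hcon
  obtain ⟨hb, ht⟩ := hcon
  have hci : Nat.card K * K.index = 60 := by rw [← hG]; exact card_mul_index K
  have hK1 : Nat.card K ≠ 1 := fun h => hb (card_eq_one.1 h)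
  have hK60 : K.index ≠ 1 := fun h => ht (index_eq_one.1 h)
  have hmem5 : 5 ∣ Nat.card K → ∀ x : G, orderOf x = 5 → x ∈ K := by
    rintro ⟨k, hk⟩ x hx
    apply mem_of_coprime K hx
    rw [Nat.Prime.coprime_iff_not_dvd (by norm_num)]
    rintro ⟨l, hl⟩
    rw [hk, hl] at hci
    have : 25 * (k * l) = 60 := by rw [← hci]; ring
    omega
  have hmem3 : 3 ∣ Nat.card K → ∀ x : G, orderOf x = 3 → x ∈ K := by
    rintro ⟨k, hk⟩ x hx
    apply mem_of_coprime K hx
    rw [Nat.Prime.coprime_iff_not_dvd (by norm_num)]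
    rintro ⟨l, hl⟩
    rw [hk, hl] at hci
    have : 9 * (k * l) = 60 := by rw [← hci]; ring
    omega
  have hone : ∀ x : G, orderOf x = 1 → x ∈ K := by
    intro x hx
    rw [orderOf_eq_one_iff.1 hx]; exact one_mem K
  have h5K : ¬ 5 ∣ Nat.card K := by
    intro hd
    have h1 := sum_le K {1, 5} (by
      intro d hd' x hx
      simp only [Finset.mem_insert, Finset.mem_singleton] at hd'
      rcases hd' with rfl | rfl
      · exact hone x hx
      · exact hmem5 hd x hx)
    rw [Finset.sum_pair (by norm_num), so_one, h5] at h1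
    have h2 : K.index = 2 := by
      by_contra hne
      have h0 : K.index ≠ 0 := fun h => by rw [h] at hci; omega
      have : 3 ≤ K.index := by omega
      have := Nat.mul_le_mul h1 this
      omega
    rw [h2] at hci
    have hc30 : Nat.card K = 30 := by omega
    have h4 := sum_le K {1, 3, 5} (by
      intro d hd' x hx
      simp only [Finset.mem_insert, Finset.mem_singleton] at hd'
      rcases hd' with rfl | rfl | rfl
      · exact hone x hx
      · exact hmem3 (by rw [hc30]; norm_num) x hx
      · exact hmem5 hd x hx)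
    rw [Finset.sum_insert (by decide), Finset.sum_pair (by norm_num), so_one, h5, h3, hc30] at h4
    omega
  have h3K : ¬ 3 ∣ Nat.card K := by
    intro hd
    have h1 := sum_le K {1, 3} (by
      intro d hd' x hx
      simp only [Finset.mem_insert, Finset.mem_singleton] at hd'
      rcases hd' with rfl | rfl
      · exact hone x hx
      · exact hmem3 hd x hx)
    rw [Finset.sum_pair (by norm_num), so_one, h3] at h1
    have h2 : K.index = 2 := by
      by_contra hne
      have h0 : K.index ≠ 0 := fun h => by rw [h] at hci; omega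
      have : 3 ≤ K.index := by omega
      have := Nat.mul_le_mul h1 this
      omega
    rw [h2] at hci
    exact h5K ⟨6, by omega⟩
  have h4K : Nat.card K ∣ 4 := by
    have h1 : Nat.card K ∣ 4 * 15 := ⟨K.index, by rw [hci]⟩
    apply Nat.Coprime.dvd_of_dvd_mul_right _ h1
    rw [show (15 : ℕ) = 3 * 5 by norm_num]
    apply Nat.Coprime.mul_right
    · exact ((Nat.Prime.coprime_iff_not_dvd (by norm_num)).2 h3K).symm
    · exact ((Nat.Prime.coprime_iff_not_dvd (by norm_num)).2 h5K).symm
  obtain ⟨g, hg⟩ := (so_ne_zero_iff (G := G) 5).1 (by rw [h5]; norm_num)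
  have h6 := card_mod (by norm_num) hg K h5K (by
    intro q hq hqK
    have h7 : q ∣ 2 ^ 2 := hqK.trans h4K
    have h8 := (Nat.prime_dvd_prime_iff_eq hq Nat.prime_two).1 (hq.dvd_of_dvd_pow h7)
    rw [h8]; exact h10)
  have h9 := Nat.le_of_dvd (by norm_num) h4K
  have hpos : 0 < Nat.card K := Nat.card_pos
  have h11 := Nat.le_of_dvd (by omega) h6
  omega

theorem simple360 {G : Type*} [Group G] [Finite G] (hG : Nat.card G = 360)
    (h3 : so G 3 = 80) (h5 : so G 5 = 144) (h10 : so G 10 = 0) (h15 : so G 15 = 0) :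
    IsSimpleGroup G := by
  have hnt : Nontrivial G := Finite.one_lt_card_iff_nontrivial.1 (by rw [hG]; norm_num)
  refine ⟨fun K hK => ?_⟩
  by_contra hcon
  push Not at hcon
  obtain ⟨hb, ht⟩ := hcon
  have hci : Nat.card K * K.index = 360 := by rw [← hG]; exact card_mul_index K
  have hK1 : Nat.card K ≠ 1 := fun h => hb (card_eq_one.1 h)
  have hK60 : K.index ≠ 1 := fun h => ht (index_eq_one.1 h)
  have hmem5 : 5 ∣ Nat.card K → ∀ x : G, orderOf x = 5 → x ∈ K := by
    rintro ⟨k, hk⟩ x hx
    apply mem_of_coprime K hx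
    rw [Nat.Prime.coprime_iff_not_dvd (by norm_num)]
    rintro ⟨l, hl⟩
    rw [hk, hl] at hci
    have : 25 * (k * l) = 360 := by rw [← hci]; ring
    omega
  have hmem3 : 9 ∣ Nat.card K → ∀ x : G, orderOf x = 3 → x ∈ K := by
    rintro ⟨k, hk⟩ x hx
    apply mem_of_coprime K hx
    rw [Nat.Prime.coprime_iff_not_dvd (by norm_num)]
    rintro ⟨l, hl⟩
    rw [hk, hl] at hci
    have : 27 * (k * l) = 360 := by rw [← hci]; ring
    omega
  have hone : ∀ x : G, orderOf x = 1 → x ∈ K := by
    intro x hx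
    rw [orderOf_eq_one_iff.1 hx]; exact one_mem K
  have h5K : ¬ 5 ∣ Nat.card K := by
    intro hd
    have h1 := sum_le K {1, 5} (by
      intro d hd' x hx
      simp only [Finset.mem_insert, Finset.mem_singleton] at hd'
      rcases hd' with rfl | rfl
      · exact hone x hx
      · exact hmem5 hd x hx)
    rw [Finset.sum_pair (by norm_num), so_one, h5] at h1
    have h2 : K.index = 2 := by
      by_contra hne
      have h0 : K.index ≠ 0 := fun h => by rw [h] at hci; omega
      have : 3 ≤ K.index := by omega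
      have := Nat.mul_le_mul h1 this
      omega
    rw [h2] at hci
    have hc30 : Nat.card K = 180 := by omega
    have h4 := sum_le K {1, 3, 5} (by
      intro d hd' x hx
      simp only [Finset.mem_insert, Finset.mem_singleton] at hd'
      rcases hd' with rfl | rfl | rfl
      · exact hone x hx
      · exact hmem3 (by rw [hc30]; norm_num) x hx
      · exact hmem5 hd x hx)
    rw [Finset.sum_insert (by decide), Finset.sum_pair (by norm_num), so_one, h5, h3, hc30] at h4
    omega
  have h4K : Nat.card K ∣ 72 := by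
    have h1 : Nat.card K ∣ 72 * 5 := ⟨K.index, by rw [hci]⟩
    apply Nat.Coprime.dvd_of_dvd_mul_right _ h1
    exact ((Nat.Prime.coprime_iff_not_dvd (by norm_num)).2 h5K).symm
  obtain ⟨g, hg⟩ := (so_ne_zero_iff (G := G) 5).1 (by rw [h5]; norm_num)
  have hprimes : ∀ q : ℕ, q.Prime → q ∣ 72 → so G (5 * q) = 0 := by
    intro q hq hqK
    have h7 : q ∣ 2 ^ 3 * 3 ^ 2 := hqK
    rcases (Nat.Prime.dvd_mul hq).1 h7 with h8 | h8
    · rw [(Nat.prime_dvd_prime_iff_eq hq Nat.prime_two).1 (hq.dvd_of_dvd_pow h8)]; exact h10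
    · rw [(Nat.prime_dvd_prime_iff_eq hq Nat.prime_three).1 (hq.dvd_of_dvd_pow h8)]; exact h15
  have h6 := card_mod (by norm_num) hg K h5K (fun q hq hqK => hprimes q hq (hqK.trans h4K))
  have hle := Nat.le_of_dvd (by norm_num) h4K
  have h636 : Nat.card K = 6 ∨ Nat.card K = 36 := by
    generalize Nat.card K = c at *
    interval_cases c <;> revert h4K h6 hK1 <;> decide
  rcases h636 with hc | hc
  · -- order 6
    have h7 : so K 3 ≠ 0 := so_prime_ne_zero 3 (by norm_num) (by rw [hc]; norm_num)
    have h8 : so K 2 ≠ 0 := so_prime_ne_zero 2 (by norm_num) (by rw [hc]; norm_num)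
    have h9 := dvd_so_prime (G := K) 3 (by norm_num) (by rw [hc]; norm_num)
    have h11 := sum_so_le (G := K) {1, 2, 3}
    rw [Finset.sum_insert (by decide), Finset.sum_pair (by norm_num), so_one, hc] at h11
    have h12 : so K 3 = 2 := by omega
    have h13 := dvd_card_of_conj (by norm_num : (5 : ℕ).Prime) hg {x | x ∈ K ∧ orderOf x = 3} (by
      rintro h x ⟨hx, hx3⟩
      refine ⟨Subgroup.Normal.conj_mem inferInstance x hx h, ?_⟩
      rw [← hx3]
      have := MulEquiv.orderOf_eq (MulAut.conj h) x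
      rwa [MulAut.conj_apply] at this) (by
      rintro x ⟨hx, hx3⟩ hcm
      have hx1 : x ≠ 1 := by rintro rfl; rw [orderOf_one] at hx3; omega
      obtain ⟨q, h3', h4', h5'⟩ := no_comm (by norm_num) hg hx1 hcm 72 (by rw [hx3]; norm_num)
        (by norm_num)
      exact h5' (hprimes q h3' h4'))
    have h14 : Nat.card {x | x ∈ K ∧ orderOf x = 3} = so K 3 := by
      unfold so
      apply Nat.card_congr
      exact
        { toFun := fun x => ⟨⟨x.1, x.2.1⟩, by rw [Subgroup.orderOf_mk]; exact x.2.2⟩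
          invFun := fun x => ⟨x.1.1, x.1.2, by
            have := x.2
            rwa [← Subgroup.orderOf_coe] at this⟩
          left_inv := fun x => rfl
          right_inv := fun x => rfl }
    rw [h14, h12] at h13
    exact absurd h13 (by norm_num)
  · have h4 := sum_le K {1, 3} (by
      intro d hd' x hx
      simp only [Finset.mem_insert, Finset.mem_singleton] at hd'
      rcases hd' with rfl | rfl
      · exact hone x hx
      · exact hmem3 (by rw [hc]; norm_num) x hx)
    rw [Finset.sum_pair (by norm_num), so_one, h3, hc] at h4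
    omega

end Cfsg.Agent.H25.Nse
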