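import Mathlib
import Cfsg.Agent.H25.NseB
import Cfsg.Agent.H25.NseC

/-!
# The order types of `A_4`, `A_5`, `A_6`
-/

set_option autoImplicit false

namespace Cfsg.Agent.H25.Nse

open Cfsg.Agent.FrobThm Subgroup Equiv.Perm

theorem card_pow_alt (n k : ℕ) : Nat.card {g : alternatingGroup (Fin n) // g ^ k = 1} =
    ((Finset.univ : Finset (Equiv.Perm (Fin n))).filter (fun g => sign g = 1 ∧ g ^ k = 1)).card := by
  rw [← Fintype.card_subtype, ← Nat.card_eq_fintype_card]
  apply Nat.card_congr
  exact
    { toFun := fun g => ⟨g.1.1, mem_alternatingGroup.1 g.1.2, by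
        have := congrArg Subtype.val g.2
        exact this⟩
      invFun := fun g => ⟨⟨g.1, mem_alternatingGroup.2 g.2.1⟩, Subtype.ext g.2.2⟩
      left_inv := fun g => rfl
      right_inv := fun g => rfl }

theorem c4_2 : Nat.card {g : alternatingGroup (Fin 4) // g ^ 2 = 1} = 4 := by
  rw [card_pow_alt]; decide +kernel
theorem c4_3 : Nat.card {g : alternatingGroup (Fin 4) // g ^ 3 = 1} = 9 := by
  rw [card_pow_alt]; decide +kernel
theorem c5_2 : Nat.card {g : alternatingGroup (Fin 5) // g ^ 2 = 1} = 16 := by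
  rw [card_pow_alt]; decide +kernel
theorem c5_3 : Nat.card {g : alternatingGroup (Fin 5) // g ^ 3 = 1} = 21 := by
  rw [card_pow_alt]; decide +kernel
theorem c5_5 : Nat.card {g : alternatingGroup (Fin 5) // g ^ 5 = 1} = 25 := by
  rw [card_pow_alt]; decide +kernel
theorem c6_2 : Nat.card {g : alternatingGroup (Fin 6) // g ^ 2 = 1} = 46 := by
  rw [card_pow_alt]; decide +kernel
theorem c6_3 : Nat.card {g : alternatingGroup (Fin 6) // g ^ 3 = 1} = 81 := by
  rw [card_pow_alt]; decide +kernel
theorem c6_4 : Nat.card {g : alternatingGroup (Fin 6) // g ^ 4 = 1} = 136 := by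
  rw [card_pow_alt]; decide +kernel
theorem c6_5 : Nat.card {g : alternatingGroup (Fin 6) // g ^ 5 = 1} = 145 := by
  rw [card_pow_alt]; decide +kernel

theorem so_p {G : Type*} [Group G] [Finite G] {p c : ℕ} (hp : p.Prime)
    (h : Nat.card {g : G // g ^ p = 1} = c) : so G p = c - 1 := by
  have h1 := sum_so (G := G) p hp.ne_zero
  rw [Nat.Prime.sum_divisors hp, so_one, h] at h1
  omega

/-- the other numbers vanish -/
theorem so_other {G : Type*} [Group G] [Finite G] (D : Finset ℕ)
    (h : Nat.card G ≤ ∑ d ∈ D, so G d) (m : ℕ) (hm : so G m ≠ 0) : m ∈ D := by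
  by_contra hmD
  have h1 := sum_so_le (G := G) (insert m D)
  rw [Finset.sum_insert hmD] at h1
  omega

theorem img_eq {G : Type*} [Group G] [Finite G] (D : Finset ℕ)
    (hD : ∀ d ∈ D, so G d ≠ 0) (h : Nat.card G ≤ ∑ d ∈ D, so G d) :
    (so G) '' Set.range (orderOf : G → ℕ) = (so G) '' (D : Set ℕ) := by
  congr 1
  ext m
  constructor
  · rintro ⟨g, rfl⟩
    exact so_other D h _ ((so_ne_zero_iff _).2 ⟨g, rfl⟩)
  · intro hm
    obtain ⟨g, hg⟩ := (so_ne_zero_iff m).1 (hD m hm)
    exact ⟨g, hg⟩

theorem card_alt (n : ℕ) (hn : 2 ≤ n) : 2 * Nat.card (alternatingGroup (Fin n)) = n.factorial := by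
  have : Nontrivial (Fin n) := Fin.nontrivial_iff_two_le.2 hn
  have := nat_card_alternatingGroup (α := Fin n)
  rw [this, Nat.card_fin]
  exact Nat.mul_div_cancel' (Nat.dvd_factorial (by norm_num) hn)

theorem img4 : (so (alternatingGroup (Fin 4))) '' Set.range (orderOf : alternatingGroup (Fin 4) → ℕ) =
    {x | x ∈ V4} := by
  have h1 := so_one (G := alternatingGroup (Fin 4))
  have h2 := so_p (by norm_num) c4_2
  have h3 := so_p (by norm_num) c4_3
  have hc := card_alt 4 (by norm_num)
  rw [show Nat.factorial 4 = 24 from rfl] at hc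
  rw [img_eq {1, 2, 3}]
  · ext x
    simp only [Finset.coe_insert, Finset.coe_singleton, Set.image_insert_eq, Set.image_singleton,
      h1, h2, h3, V4]
    simp
  · intro d hd
    simp only [Finset.mem_insert, Finset.mem_singleton] at hd
    rcases hd with rfl | rfl | rfl <;> omega
  · rw [Finset.sum_insert (by decide), Finset.sum_pair (by norm_num), h1, h2, h3]
    omega

theorem img5 : (so (alternatingGroup (Fin 5))) '' Set.range (orderOf : alternatingGroup (Fin 5) → ℕ) =
    {x | x ∈ V5} := by
  have h1 := so_one (G := alternatingGroup (Fin 5))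
  have h2 := so_p (by norm_num) c5_2
  have h3 := so_p (by norm_num) c5_3
  have h5 := so_p (by norm_num) c5_5
  have hc := card_alt 5 (by norm_num)
  rw [show Nat.factorial 5 = 120 from rfl] at hc
  rw [img_eq {1, 2, 3, 5}]
  · ext x
    simp only [Finset.coe_insert, Finset.coe_singleton, Set.image_insert_eq, Set.image_singleton,
      h1, h2, h3, h5, V5]
    simp
  · intro d hd
    simp only [Finset.mem_insert, Finset.mem_singleton] at hd
    rcases hd with rfl | rfl | rfl | rfl <;> omega
  · rw [Finset.sum_insert (by decide), Finset.sum_insert (by decide), Finset.sum_pair (by norm_num),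
      h1, h2, h3, h5]
    omega

theorem img6 : (so (alternatingGroup (Fin 6))) '' Set.range (orderOf : alternatingGroup (Fin 6) → ℕ) =
    {x | x ∈ V6} := by
  have h1 := so_one (G := alternatingGroup (Fin 6))
  have h2 := so_p (by norm_num) c6_2
  have h3 := so_p (by norm_num) c6_3
  have h5 := so_p (by norm_num) c6_5
  have h4 : so (alternatingGroup (Fin 6)) 4 = 90 := by
    have h6 := sum_so (G := alternatingGroup (Fin 6)) 4 (by norm_num)
    rw [sum_divisors_four, c6_4, h1, h2] at h6
    omega
  have hc := card_alt 6 (by norm_num)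
  rw [show Nat.factorial 6 = 720 from rfl] at hc
  rw [img_eq {1, 2, 3, 4, 5}]
  · ext x
    simp only [Finset.coe_insert, Finset.coe_singleton, Set.image_insert_eq, Set.image_singleton,
      h1, h2, h3, h4, h5, V6]
    simp
  · intro d hd
    simp only [Finset.mem_insert, Finset.mem_singleton] at hd
    rcases hd with rfl | rfl | rfl | rfl | rfl <;> omega
  · rw [Finset.sum_insert (by decide), Finset.sum_insert (by decide), Finset.sum_insert (by decide),
      Finset.sum_pair (by norm_num), h1, h2, h3, h4, h5]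
    omega

/-- The hypotheses of the search. -/
theorem hyps {G : Type*} [Group G] [Finite G] {V : List ℕ}
    (h : (so G) '' Set.range (orderOf : G → ℕ) = {x | x ∈ V}) :
    (∀ m, so G m ≠ 0 → so G m ∈ V) ∧ ∀ v ∈ V, ∃ m, so G m = v := by
  constructor
  · intro m hm
    have : so G m ∈ (so G) '' Set.range (orderOf : G → ℕ) := ⟨m, (so_ne_zero_iff m).1 hm, rfl⟩
    rw [h] at this
    exact this
  · intro v hv
    have : v ∈ (so G) '' Set.range (orderOf : G → ℕ) := by rw [h]; exact hv
    obtain ⟨m, _, hm⟩ := this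
    exact ⟨m, hm⟩

end Cfsg.Agent.H25.Nse
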